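import Cfsg.Agent.H9.LL
import Cfsg.Agent.H9.FpfAut

/-!
Fixed point free automorphisms of `2`-power order.
-/

set_option autoImplicit false

namespace Cfsg.Agent.H9

open Subgroup Module
open scoped commutatorElement

universe u

theorem two_pow_le_fitTerm_two {X : Type u} [Group X] [Finite X] {G : Subgroup X} [G.Normal]
    (hG : Group.IsSolvable G) {g : X} {m : ℕ} (hg1 : g ^ 2 ^ (m + 1) = 1)
    (hGp : (Nat.card G).Coprime 2) (hC : G ⊓ centralizer {g} = ⊥) :
    ⁅G, zpowers (g ^ 2 ^ m)⁆ ≤ L.fitTerm X 2 := by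
  have hcop : (Nat.card (zpowers g)).Coprime (Nat.card G) := by
    rw [Nat.card_zpowers]; exact H1.orderOf_coprime_of_pow_eq_one hg1 hGp
  have hBA : zpowers (g ^ 2 ^ m) ≤ zpowers g := zpowers_le.mpr (npow_mem_zpowers g _)
  refine commutator_le_fitTerm_two hG hBA hcop
    fun r s t hr hs ht hrs hst Q R hQG hRG hQ hR hAQ hAR hRQ => ?_
  have := Fact.mk hs
  have := Fact.mk hr
  have hQt : (Nat.card Q).Coprime t :=
    (H1.coprime_card_of_isPGroup hQ ((Nat.coprime_primes ht hs).mpr hst.symm)).symm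
  have key : ∀ {a : ℕ} {P : Subgroup X}, IsPGroup a P → P ≤ G → a = 2 → P = ⊥ := by
    rintro a P hP hPG rfl
    rw [← inf_eq_left.mpr hPG]
    exact H1.inf_eq_bot_of_coprime' (H1.coprime_card_of_isPGroup hP hGp).symm
  by_cases hpt : t = 2
  · rw [key ((L.isPGroup_pCore t).to_le inf_le_left) inf_le_right hpt, le_centralizer_iff]; simp
  by_cases hs2 : s = 2
  · rw [key hQ hQG hs2, commutator_bot_left]; exact bot_le
  by_cases hr2 : r = 2
  · rw [key hR hRG hr2, commutator_bot_left, commutator_bot_right]; exact bot_le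
  have hle : ⁅R, zpowers (g ^ 2 ^ m)⁆ ≤ R := H1.commutator_le_of_le_normalizer (hBA.trans hAR)
  refine le_centralizer_pCore_of_rep hcop (by rwa [H1.centralizer_zpowers']) ht
    (hQt.coprime_dvd_left (card_dvd_of_le (H1.commutator_le_of_le_normalizer
      (hle.trans hRQ)))) fun k V _ _ _ _ _ _ ρ _ hfix => ?_
  refine ll_rep Nat.prime_two hs hr hs2 hr2 hrs
    (H1.cast_ne_zero_of_prime_ne ht Nat.prime_two (Ne.symm hpt))
    (H1.cast_ne_zero_of_prime_ne ht hs hst) (Or.inl rfl) _ X V ρ Q _ g rfl hQ (hR.to_le hle)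
    (hAQ (mem_zpowers g)) (H1.le_normalizer_commutator hAR (H1.le_normalizer_of_le_centralizer (by
      rw [H1.centralizer_zpowers']
      exact zpowers_le.mpr (mem_centralizer_singleton_iff.mpr (Commute.self_pow g _).eq)))
      (mem_zpowers g)) (hle.trans hRQ) hg1 (H1.commutator_commutator_eq (hBA.trans hAR)
      ((hcop.coprime_dvd_left (card_dvd_of_le hBA)).coprime_dvd_right (card_dvd_of_le hRG)))
    fun v hv => hfix v fun a ha => fix_of_mem_zpowers hv ha

theorem fitLE_of_fpf_two (n : ℕ) :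
    ∀ (G : Type u) [Group G] [Finite G], Group.IsSolvable G → ∀ σ : MulAut G,
      σ ^ 2 ^ (n + 2) = 1 → (∀ g, σ g = g → g = 1) → L.FitLE (2 * n + 2) G := by
  induction n with
  | zero =>
    intro G _ _ hG σ hσ hfpf
    have h := commutator_le_fitting_of_fpf_four hG hσ hfpf
    refine L.fitLE_succ_iff.mpr (L.fitLE_one_iff.mpr ?_)
    have : IsMulCommutative (G ⧸ fittingSubgroup G) :=
      (Subgroup.Normal.quotient_commutative_iff_commutator_le).mpr h
    open scoped IsMulCommutative in exact CommGroup.isNilpotent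
  | succ n ih =>
    intro G _ _ hG σ hσ hfpf
    obtain ⟨τ, h1, h2⟩ := exists_quotient_aut σ hfpf (L.fitTerm G 2)
    have h3 : ∀ x, (σ ^ 2 ^ (n + 2)) x * x⁻¹ ∈ L.fitTerm G 2 := by
      obtain ⟨X, _, _, f, g, hf, hn, h1, h2⟩ := exists_ambient σ
      refine aut_mem_fitTerm hf h2 (two_pow_le_fitTerm_two
        (L.isSolvable_of_mulEquiv (MonoidHom.ofInjective hf)) (h1 _ hσ) ?_
        (range_inf_centralizer_eq_bot hf h2 hfpf))
      rw [← Nat.card_congr (MonoidHom.ofInjective hf).toEquiv]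
      exact coprime_of_fpf_pow Nat.prime_two hσ hfpf
    have h4 := ih _ inferInstance τ (h2 _ h3) h1
    rw [show 2 * (n + 1) + 2 = 2 + (2 * n + 2) by ring]
    exact L.fitLE_add_iff.mpr h4

end Cfsg.Agent.H9
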