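/-
The class of groups with a single conjugacy class of Hall π-subgroups is closed under extensions.
-/
import Cfsg.Agent.FT.Base

set_option autoImplicit false

namespace Cfsg.Agent.H9

open Subgroup Cfsg Cfsg.Agent Cfsg.Agent.FT

variable {G : Type*} [Group G] [Finite G] {π : Set ℕ} {A : Subgroup G}

omit [Finite G] in
theorem cpi_conj (hA : IsCPiGroup π A) {H K : Subgroup G} (hH : IsPiHallOf π H A)
    (hK : IsPiHallOf π K A) : ∃ a ∈ A, K = H ^ᵍ a := by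
  obtain ⟨a, ha⟩ := hA.2 _ _ ((H1.isPiHallOf_iff_subgroupOf hH.1).1 hH)
    ((H1.isPiHallOf_iff_subgroupOf hK.1).1 hK)
  refine ⟨a, a.2, ?_⟩
  rw [← map_subgroupOf_eq_of_le hK.1, ← map_subgroupOf_eq_of_le hH.1, ha, map_map, map_map]
  rfl

omit [Finite G] in
theorem cpi_frattini [A.Normal] (hA : IsCPiGroup π A) {H : Subgroup G} (hH : IsPiHallOf π H A)
    (g : G) : ∃ a ∈ A, ∃ n ∈ 𝐍(H), g = a * n := by
  obtain ⟨a, ha, e⟩ := cpi_conj hA hH (hall_conj_of_mem hH (g := g) (by simp [normalizer_eq_top]))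
  refine ⟨a, ha, a⁻¹ * g, conj_eq_self_iff.1 ?_, by group⟩
  rw [← conj_conj, e, conj_conj_inv]

omit [Finite G] in
theorem piSep_inf_norm [A.Normal] {H B : Subgroup G} (hH : IsPiHallOf π H A) (hB : A ≤ B)
    (hi : L.IsPiNum π (A.relIndex B)) (hs : A ⊔ (B ⊓ 𝐍(H)) = B) : L.PiSep π ↥(B ⊓ 𝐍(H)) := by
  have h1 : H ≤ B ⊓ 𝐍(H) := le_inf (hH.1.trans hB) (le_norm_self H)
  refine .step (A.subgroupOf _) _ (.step (H.subgroupOf _) _ (.step ⊥ _ .bot bot_le
    (H1.normal_subgroupOf_of_le inf_le_right) (Or.inl ?_)) (comap_mono hH.1) inferInstance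
    (Or.inr ?_)) le_top inferInstance (Or.inl ?_)
  · rw [relIndex_bot_left]
    exact isPi_of_le (G := ↥(B ⊓ 𝐍(H))) le_rfl (H1.isPiSubgroup_subgroupOf hH.2.1 _)
  · rw [← inf_subgroupOf_right A, relIndex_subgroupOf inf_le_right]
    refine L.IsPiNum.of_dvd (H1.isPiHallOf_iff.1 hH).2.2 ?_
    exact Dvd.intro _ (relIndex_mul_relIndex H _ A (le_inf hH.1 h1) inf_le_left)
  · rw [relIndex_top_right]
    rw [← hs, relIndex_sup_left] at hi
    exact hi

theorem cpi_ext [A.Normal] (hFT : ∀ K : Subgroup G, Odd 𝐨(K) → Group.IsSolvable K)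
    (hA : IsCPiGroup π A) (hQ : IsCPiGroup π (G ⧸ A)) : IsCPiGroup π G := by
  have fr : ∀ {H B : Subgroup G}, IsPiHallOf π H A → A ≤ B → A ⊔ (B ⊓ 𝐍(H)) = B :=
    fun {H B} hH hB => le_antisymm (sup_le hB inf_le_left) fun g hg => by
      obtain ⟨a, ha, n, hn, rfl⟩ := cpi_frattini hA hH g
      exact mul_mem (mem_sup_left ha)
        (mem_sup_right (mem_inf.2 ⟨(mul_mem_cancel_left (hB ha)).1 hg, hn⟩))
  have qs := QuotientGroup.mk'_surjective A
  have ix : ∀ B : Subgroup (G ⧸ A), A ≤ B.comap (QuotientGroup.mk' A) ∧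
      A.relIndex (B.comap (QuotientGroup.mk' A)) = 𝐨(B) := fun B => by
    have := relIndex_ker (K := B.comap (QuotientGroup.mk' A)) (QuotientGroup.mk' A)
    rw [QuotientGroup.ker_mk', map_comap_eq_self_of_surjective qs] at this
    exact ⟨QuotientGroup.le_comap_mk' A B, this⟩
  refine ⟨?_, fun L₁ L₂ h₁ h₂ => ?_⟩
  · obtain ⟨H₀, hH₀⟩ := hA.1
    have hH := H1.isPiHallOf_map_subtype hH₀
    obtain ⟨B₀, hB₀⟩ := hQ.1
    obtain ⟨i1, i2⟩ := ix B₀
    have i3 := index_comap_of_surjective B₀ qs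
    generalize H₀.map A.subtype = H at hH
    generalize B₀.comap (QuotientGroup.mk' A) = B at i1 i2 i3
    have hs := fr hH i1
    obtain ⟨K, hK⟩ := H1.exists_isPiHallOf (piSep_inf_norm hH i1 (i2 ▸ hB₀.1) hs)
    refine ⟨K, H1.isPiHall_iff.2 ⟨hK.2.1, ?_⟩⟩
    rw [← relIndex_mul_index (hK.1.trans inf_le_left),
      ← relIndex_mul_relIndex K _ B hK.1 inf_le_left, i3]
    refine ((H1.isPiHallOf_iff.1 hK).2.2.mul ?_).mul (H1.isPiHall_iff.1 hB₀).2
    refine L.IsPiNum.of_dvd (H1.isPiHallOf_iff.1 hH).2.2 ?_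
    have e1 := H1.card_mul_relIndex i1
    have e2 := H1.card_mul_relIndex (inf_le_left : B ⊓ 𝐍(H) ≤ B)
    have e3 := H1.card_inf_mul_relIndex A (B ⊓ 𝐍(H))
    have e4 := H1.card_mul_relIndex (inf_le_left : A ⊓ (B ⊓ 𝐍(H)) ≤ A)
    have e5 : A.relIndex (B ⊓ 𝐍(H)) = A.relIndex B := by rw [← relIndex_sup_left, hs]
    have e6 : (B ⊓ 𝐍(H)).relIndex B = (A ⊓ (B ⊓ 𝐍(H))).relIndex A := by
      refine Nat.eq_of_mul_eq_mul_left (Nat.card_pos (α := ↥(B ⊓ 𝐍(H)))) ?_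
      rw [e2, ← e1, ← e4, ← e3, e5]
      ring
    rw [e6]
    exact relIndex_dvd_of_le_left _ (le_inf hH.1 (le_inf (hH.1.trans i1) (le_norm_self H)))
  · have k1 := H1.isPiHall_inf_normal h₁ A
    have k2 := H1.isPiHall_inf_normal h₂ A
    obtain ⟨a, ha, e1⟩ := cpi_conj hA k1 k2
    have m2 := H1.isPiHall_map_of_surjective h₂ qs
    obtain ⟨gb, e2⟩ := hQ.2 _ _ (H1.isPiHall_map_of_surjective h₁ qs) m2
    obtain ⟨g, rfl⟩ := qs gb
    obtain ⟨a', ha', n, hn, rfl⟩ := cpi_frattini hA k2 g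
    obtain ⟨i1, i2⟩ := ix (L₂.map (QuotientGroup.mk' A))
    have hA' : ∀ g : G, A ^ᵍ g = A := fun g => conj_eq_of_mem_norm (by simp [normalizer_eq_top])
    have nn : ∀ L : Subgroup G, L ≤ 𝐍(L ⊓ A) := fun L => by
      rw [inf_comm]
      exact (inf_normal (N := A) (H := ⊤) ⟨le_top, normal_iff_top_le.1 inferInstance⟩ le_top).2
    have j1 : L₁ ^ᵍ (n * a) ≤ (L₂.map (QuotientGroup.mk' A)).comap (QuotientGroup.mk' A) ⊓
        𝐍(L₂ ⊓ A) := by
      refine le_inf (fun x hx => ?_) ?_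
      · obtain ⟨y, hy, rfl⟩ := mem_conj'.1 hx
        rw [mem_comap, e2]
        refine mem_conj'.2 ⟨_, mem_map_of_mem _ hy, ?_⟩
        simp [(QuotientGroup.eq_one_iff a).2 ha, (QuotientGroup.eq_one_iff a').2 ha']
      · refine (nn _).trans_eq ?_
        rw [← hA' (n * a), ← map_inf _ _ _ (conj_injective _), ← conj_conj, ← e1, hA',
          conj_eq_of_mem_norm hn]
    have j2 : L₂ ≤ (L₂.map (QuotientGroup.mk' A)).comap (QuotientGroup.mk' A) ⊓ 𝐍(L₂ ⊓ A) :=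
      le_inf (le_comap_map _ _) (nn _)
    obtain ⟨c, -, hc⟩ := H1.exists_conj_eq_isPiHallOf (piSep_inf_norm k2 i1 (i2 ▸ m2.1) (fr k2 i1))
      (hall_of_le (H1.isPiHallOf_top_iff.2 h₂) j2 le_top) (by
        by_cases h2 : 2 ∈ π
        · exact Or.inr fun K _ hK => hFT K (Nat.not_even_iff_odd.1 fun e =>
            hK 2 Nat.prime_two e.two_dvd h2)
        · exact Or.inl (hFT _ (Nat.not_even_iff_odd.1 fun e => h2 (h₂.1 2 Nat.prime_two e.two_dvd))))
      (hall_of_le (H1.isPiHallOf_top_iff.2 (H1.isPiHall_map_conj h₁ _)) j1 le_top)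
    exact ⟨c * (n * a), by rw [← hc, conj_conj]⟩

end Cfsg.Agent.H9
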