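import Cfsg.Agent.H9.KP2

/-!
Fixed point free action of the symmetric group of degree three.
-/

set_option autoImplicit false

namespace Cfsg.Agent.H9

open Subgroup Module
open scoped commutatorElement IsMulCommutative

universe u v

section Aux

variable {X : Type*} [Group X]

/-- The elements normalizing `N` and fixing `x` modulo `N`. -/
def elemStab (x : X) (N : Subgroup X) : Subgroup X where
  carrier := {a | a ∈ normalizer (N : Set X) ∧ ⁅x, a⁆ ∈ N}
  one_mem' := ⟨one_mem _, by simp⟩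
  mul_mem' := by
    rintro a b ⟨ha, ha'⟩ ⟨hb, hb'⟩
    refine ⟨mul_mem ha hb, ?_⟩
    rw [show ⁅x, a * b⁆ = ⁅x, a⁆ * (a * ⁅x, b⁆ * a⁻¹) by group]
    exact mul_mem ha' ((mem_normalizer_iff.mp ha _).mp hb')
  inv_mem' := by
    rintro a ⟨ha, ha'⟩
    refine ⟨inv_mem ha, ?_⟩
    rw [show ⁅x, a⁻¹⁆ = a⁻¹ * ⁅x, a⁆⁻¹ * a⁻¹⁻¹ by group]
    exact (mem_normalizer_iff.mp (inv_mem ha) _).mp (inv_mem ha')

variable [Finite X]

theorem norm_three_mem {A V N : Subgroup X} (hNV : N ≤ V) (hVV : ⁅V, V⁆ ≤ N)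
    (hAV : A ≤ normalizer (V : Set X)) (hAN : A ≤ normalizer (N : Set X))
    (hcop : (Nat.card A).Coprime (Nat.card V)) (hVA : ⁅V, A⁆ = V) {f h : X} (hf : f ∈ A)
    (hh : h ∈ A) (hf3 : f * f * f = 1) (hrel : h * f * h⁻¹ = f * f)
    (hA : A ≤ zpowers h ⊔ zpowers f) {u : X} (hu : u ∈ V) (huh : h * u * h⁻¹ = u) :
    u * (f * u * f⁻¹ * (h * (f * u * f⁻¹) * h⁻¹)) ∈ N := by
  have h1 := H1.conj_mem_of_le_normalizer hAV hf hu
  have h2 := H1.conj_mem_of_le_normalizer hAV hh h1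
  have e1 : h * (f * u * f⁻¹) * h⁻¹ = f * (f * u * f⁻¹) * f⁻¹ := by
    rw [show h * (f * u * f⁻¹) * h⁻¹ = (h * f * h⁻¹) * (h * u * h⁻¹) * (h * f * h⁻¹)⁻¹ by group,
      hrel, huh]
    group
  have e2 : f * (h * (f * u * f⁻¹) * h⁻¹) * f⁻¹ = u := by
    rw [e1, show f * (f * (f * u * f⁻¹) * f⁻¹) * f⁻¹ = (f * f * f) * u * (f * f * f)⁻¹ by group, hf3]
    group
  have e3 : h * (h * (f * u * f⁻¹) * h⁻¹) * h⁻¹ = f * u * f⁻¹ := by
    rw [e1, show h * (f * (f * u * f⁻¹) * f⁻¹) * h⁻¹ = (h * f * h⁻¹) * (h * f * h⁻¹) *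
      (h * u * h⁻¹) * ((h * f * h⁻¹) * (h * f * h⁻¹))⁻¹ by group, hrel, huh,
      show f * f * (f * f) = f * (f * f * f) by group, hf3, mul_one]
  generalize e0 : f * u * f⁻¹ = u₁ at *
  refine H1.mem_of_commutator_mem_of_abelian_section hNV hVV hAV hAN hcop
    (mem_sup_left (hVA.ge (mul_mem hu (mul_mem h1 h2)))) fun a ha => ?_
  have : A ≤ elemStab (u * (u₁ * (h * u₁ * h⁻¹))) N := by
    refine hA.trans (sup_le (zpowers_le.mpr ⟨hAN hh, ?_⟩) (zpowers_le.mpr ⟨hAN hf, ?_⟩))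
    · rw [show ⁅u * (u₁ * (h * u₁ * h⁻¹)), h⁆ = u * (u₁ * (h * u₁ * h⁻¹)) * ((h * u * h⁻¹) *
        ((h * u₁ * h⁻¹) * (h * (h * u₁ * h⁻¹) * h⁻¹)))⁻¹ by group, huh, e3,
        show u * (u₁ * (h * u₁ * h⁻¹)) * (u * (h * u₁ * h⁻¹ * u₁))⁻¹ =
          ⁅u * u₁ * u⁻¹, u * (h * u₁ * h⁻¹) * u⁻¹⁆ by group]
      exact hVV (commutator_mem_commutator (mul_mem (mul_mem hu h1) (inv_mem hu))
        (mul_mem (mul_mem hu h2) (inv_mem hu)))
    · rw [show ⁅u * (u₁ * (h * u₁ * h⁻¹)), f⁆ = u * (u₁ * (h * u₁ * h⁻¹)) * ((f * u * f⁻¹) *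
        ((f * u₁ * f⁻¹) * (f * (h * u₁ * h⁻¹) * f⁻¹)))⁻¹ by group, e0, ← e1, e2,
        show u * (u₁ * (h * u₁ * h⁻¹)) * (u₁ * (h * u₁ * h⁻¹ * u))⁻¹ =
          ⁅u, u₁ * (h * u₁ * h⁻¹)⁆ by group]
      exact hVV (commutator_mem_commutator hu (mul_mem h1 h2))
  exact (this ha).2

omit [Finite X] in
theorem commutator_inv_sq {Y : Type*} [Group Y] (hc : ∀ a b c : Y, Commute ⁅a, b⁆ c) {x y a b : Y}
    (hx : x * (a * a) ∈ center Y) (hy : y * (b * b) ∈ center Y) : ⁅x, y⁆ = ⁅a, b⁆ ^ 4 := by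
  have k1 : ∀ x y z : Y, ⁅x * y, z⁆ = ⁅x, z⁆ * ⁅y, z⁆ := fun x y z => by
    rw [H1.commutatorElement_mul_left_of_central (hc y z x).symm, (hc _ _ _).eq]
  have k2 : ∀ x y z : Y, ⁅z, x * y⁆ = ⁅z, x⁆ * ⁅z, y⁆ := fun x y z => by
    rw [← commutatorElement_inv, k1, (hc x z _).eq, mul_inv_rev, commutatorElement_inv,
      commutatorElement_inv]
  have k3 : ∀ z : Y, ⁅x, z⁆ = (⁅a, z⁆ * ⁅a, z⁆)⁻¹ := fun z => by
    rw [eq_inv_iff_mul_eq_one, ← k1, ← k1, commutatorElement_eq_one_iff_mul_comm]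
    exact (mem_center_iff.mp hx z).symm
  have k4 : ∀ z : Y, ⁅z, y⁆ = (⁅z, b⁆ * ⁅z, b⁆)⁻¹ := fun z => by
    rw [eq_inv_iff_mul_eq_one, ← k2, ← k2, commutatorElement_eq_one_iff_mul_comm]
    exact mem_center_iff.mp hy z
  rw [k3, k4]
  generalize ⁅a, b⁆ = w
  group

/-- With a fixed point free symmetric group of degree three, `Q / [Q, h]` is abelian. -/
theorem commutator_le_commutator_involution {A Q : Subgroup X} (hQ : Group.IsNilpotent Q)
    (hAQ : A ≤ normalizer (Q : Set X)) (hcop : (Nat.card A).Coprime (Nat.card Q))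
    (h6 : (Nat.card Q).Coprime 6) (hC : Q ⊓ centralizer (A : Set X) = ⊥) {f h : X} (hf : f ∈ A)
    (hh : h ∈ A) (hf3 : f * f * f = 1) (hrel : h * f * h⁻¹ = f * f)
    (hA : A ≤ zpowers h ⊔ zpowers f) : ⁅Q, Q⁆ ≤ ⁅Q, zpowers h⁆ := by
  have hsol : Group.IsSolvable Q := inferInstance
  have hhA : zpowers h ≤ A := zpowers_le.mpr hh
  have hQQ : ⁅Q, Q⁆ ≤ Q := H1.commutator_le_of_le_normalizer le_normalizer
  have hQ2 : Q ≤ normalizer ((⁅Q, Q⁆ : Subgroup X) : Set X) := normalizer_commutator_ge_left Q Q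
  have hQ3 : ⁅⁅Q, Q⁆, Q⁆ ≤ ⁅Q, Q⁆ := H1.commutator_le_of_le_normalizer hQ2
  have hA2 := H1.le_normalizer_commutator hAQ hAQ
  have hK₀ : Q ≤ normalizer ((⁅Q, zpowers h⁆ : Subgroup X) : Set X) :=
    normalizer_commutator_ge_left _ _
  have hK₀Q : ⁅Q, zpowers h⁆ ≤ Q := H1.commutator_le_of_le_normalizer (hhA.trans hAQ)
  have key : ⁅Q, Q⁆ ≤ ⁅⁅Q, Q⁆, Q⁆ ⊔ ⁅Q, zpowers h⁆ := by
    set K := ⁅⁅Q, Q⁆, Q⁆ ⊔ ⁅Q, zpowers h⁆
    have := H1.normal_subgroupOf_of_le (Y := Q) (N := K)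
      (H1.le_normalizer_sup (normalizer_commutator_ge_right _ _) hK₀)
    let π := H1.qmk Q K
    have hc : ∀ a b c : Q ⧸ K.subgroupOf Q, Commute ⁅a, b⁆ c := by
      intro a b c
      obtain ⟨a, rfl⟩ := H1.qmk_surjective a
      obtain ⟨b, rfl⟩ := H1.qmk_surjective b
      obtain ⟨c, rfl⟩ := H1.qmk_surjective c
      rw [← commutatorElement_eq_one_iff_commute, ← map_commutatorElement, ← map_commutatorElement,
        H1.qmk_eq_one_iff]
      exact mem_sup_left (commutator_mem_commutator (commutator_mem_commutator a.2 b.2) c.2)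
    have hcen : ∀ z : Q, (z : X) ∈ ⁅Q, Q⁆ → π z ∈ center (Q ⧸ K.subgroupOf Q) := by
      intro z hz
      refine mem_center_iff.mpr fun c => ?_
      obtain ⟨c, rfl⟩ := H1.qmk_surjective c
      rw [eq_comm, ← commutatorElement_eq_one_iff_mul_comm, ← map_commutatorElement,
        H1.qmk_eq_one_iff]
      exact mem_sup_left (commutator_mem_commutator hz c.2)
    let α := H1.conjAutOf (hAQ hf)
    let β := H1.conjAutOf (hAQ hh)
    have hβ : ∀ x : Q, π (β x) = π x := fun x => by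
      rw [eq_comm, ← mul_inv_eq_one, ← map_inv, ← map_mul, H1.qmk_eq_one_iff]
      refine mem_sup_right ?_
      have := commutator_mem_commutator x.2 (mem_zpowers h)
      rwa [show ⁅(x : X), h⁆ = x * (h * x * h⁻¹)⁻¹ by group] at this
    have h1 : ∀ u : Q, β u = u → π u * (π (α u) * π (α u)) ∈ center (Q ⧸ K.subgroupOf Q) := by
      intro u hu
      have := hcen (u * (α u * β (α u))) (norm_three_mem hQQ le_rfl hAQ hA2 hcop
        (commutator_eq_of_inf_centralizer_eq_bot hAQ hcop hsol hC) hf hh hf3 hrel hA u.2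
        (congrArg Subtype.val hu))
      rwa [map_mul, map_mul, hβ] at this
    have h2 : ∀ u v : Q, β u = u → β v = v → π ⁅u, v⁆ = 1 := by
      intro u v hu hv
      have b1 : β ⁅u, v⁆ = ⁅u, v⁆ := by rw [map_commutatorElement, hu, hv]
      have b2 : π (⁅u, v⁆ * (α ⁅u, v⁆ * β (α ⁅u, v⁆))) = 1 :=
        H1.qmk_eq_one_iff.mpr (mem_sup_left (norm_three_mem hQ3 (commutator_mono le_rfl hQQ) hA2
          (H1.le_normalizer_commutator hA2 hAQ) (H1.coprime_of_le hcop le_rfl hQQ)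
          (commutator_eq_of_inf_centralizer_eq_bot hA2 (H1.coprime_of_le hcop le_rfl hQQ)
            (H1.isSolvable_of_le hQQ hsol) (eq_bot_iff.mpr ((inf_le_inf_right _ hQQ).trans hC.le)))
          hf hh hf3 hrel hA (commutator_mem_commutator u.2 v.2) (congrArg Subtype.val b1)))
      have b3 := commutator_inv_sq hc (h1 u hu) (h1 v hv)
      rw [map_mul, map_mul, hβ, map_commutatorElement, b3, map_commutatorElement,
        map_commutatorElement] at b2
      rw [map_commutatorElement, b3]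
      generalize ⁅π (α u), π (α v)⁆ = w at b2
      have b4 : w ^ 6 = 1 := by rw [← b2]; group
      have b5 : w ^ Nat.card Q = 1 := by
        obtain ⟨w, rfl⟩ := H1.qmk_surjective w
        rw [← map_pow, pow_card_eq_one', map_one]
      have b6 := pow_gcd_eq_one.mpr ⟨b5, b4⟩
      rw [h6.gcd_eq_one, pow_one] at b6
      rw [b6, one_pow]
    have h3 : ∀ x : Q, ∃ u : Q, β u = u ∧ π x = π u := by
      intro x
      obtain ⟨k, hk, c, hc, hx⟩ := H1.exists_commutator_mul_centralizer (hhA.trans hAQ)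
        (H1.coprime_of_le hcop hhA le_rfl) (Or.inr hsol) x.2
      refine ⟨⟨c, (mem_inf.mp hc).1⟩, Subtype.ext (mul_inv_eq_iff_eq_mul.mpr
        (mem_centralizer_iff.mp (mem_inf.mp hc).2 h (mem_zpowers h))), ?_⟩
      rw [← mul_inv_eq_one, ← map_inv, ← map_mul, H1.qmk_eq_one_iff]
      refine mem_sup_right ?_
      simpa [hx] using hk
    refine commutator_le.mpr fun x hx y hy => ?_
    obtain ⟨u, hu, hxu⟩ := h3 ⟨x, hx⟩
    obtain ⟨v, hv, hyv⟩ := h3 ⟨y, hy⟩
    have := h2 u v hu hv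
    rw [map_commutatorElement, ← hxu, ← hyv, ← map_commutatorElement, H1.qmk_eq_one_iff] at this
    exact this
  have := H1.normal_subgroupOf_of_le hK₀
  rw [← H1.bar_eq_bot_iff (N := ⁅Q, zpowers h⁆) hQQ]
  by_contra hne
  have := H1.isNilpotent_bar (N := ⁅Q, zpowers h⁆) le_rfl hQ
  refine (L.commutator_lt_of_isNilpotent (H1.bar_mono hQQ) (H1.bar_le_normalizer hQ2) hne).not_ge ?_
  rw [← H1.bar_commutator hQQ le_rfl, ← H1.bar_sup_self hK₀Q (hQ3.trans hQQ)]
  exact H1.bar_mono key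

theorem commutator_eq_bot_of_fpf_involution {C : Subgroup X} {b : X}
    (hb : b ∈ normalizer (C : Set X)) (hb2 : b * b = 1) (hC : C ⊓ centralizer {b} = ⊥) :
    ⁅C, C⁆ = ⊥ := by
  refine eq_bot_iff.mpr (commutator_le.mpr fun x hx y hy => ?_)
  have := MonoidHom.FixedPointFree.commute_all_of_involutive (φ := H1.conjAutOf hb)
    (fun z hz => Subtype.ext (mem_bot.mp (hC.le (mem_inf.mpr ⟨z.2,
      mem_centralizer_singleton_iff.mpr
        (mul_inv_eq_iff_eq_mul.mp (congrArg Subtype.val hz)).symm⟩))))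
    (fun z => Subtype.ext (by
      rw [H1.coe_conjAutOf, H1.coe_conjAutOf,
        show b * (b * z * b⁻¹) * b⁻¹ = (b * b) * z * (b * b)⁻¹ by group, hb2]
      simp)) ⟨x, hx⟩ ⟨y, hy⟩
  exact commutatorElement_eq_one_iff_mul_comm.mpr (congrArg Subtype.val this.eq)

set_option synthInstance.maxSize 4096 in
theorem perm_three_gen : ∀ a : Equiv.Perm (Fin 3), a ≠ 1 → ∃ t c : Equiv.Perm (Fin 3),
    t * t = 1 ∧ c * c * c = 1 ∧ t * c * t⁻¹ = c * c ∧ (a = t ∨ a = c) ∧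
      ∀ x, x = 1 ∨ x = c ∨ x = c * c ∨ x = t ∨ x = t * c ∨ x = t * (c * c) := by
  decide

end Aux

section Rep

variable {k : Type*} {V : Type v} [Field k] [AddCommGroup V] [Module k V] {X : Type u} [Group X]
  [Finite X] [IsAlgClosed k] [FiniteDimensional k V]

theorem s3_faithful {ρ : X →* End k V} (hρ : ∀ x, ρ x = 1 → x = 1) (ψ : Equiv.Perm (Fin 3) →* X)
    {Q : Subgroup X} {s : ℕ} (hs : s.Prime) (hsk : (s : k) ≠ 0) (h6k : ((6 : ℕ) : k) ≠ 0)
    (hQ : IsPGroup s Q) (hAQ : ψ.range ≤ normalizer (Q : Set X)) (h6 : (Nat.card Q).Coprime 6)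
    (hC : Q ⊓ centralizer (ψ.range : Set X) = ⊥)
    (hfix : ∀ v, (∀ a ∈ ψ.range, ρ a v = v) → v = 0) : ⁅Q, Q⁆ = ⊥ := by
  have := Fact.mk hs
  have hP : Nat.card (Equiv.Perm (Fin 3)) = 2 * 3 := by
    rw [Nat.card_eq_fintype_card, Fintype.card_perm]; rfl
  have hA6 : Nat.card ψ.range ∣ 6 := by
    have := card_range_dvd ψ
    rwa [hP] at this
  have hcop : (Nat.card ψ.range).Coprime (Nat.card Q) := (h6.coprime_dvd_right hA6).symm
  have hAk : (Nat.card ψ.range : k) ≠ 0 := fun h => h6k (by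
    obtain ⟨c, hc⟩ := hA6
    rw [hc, Nat.cast_mul, h, zero_mul])
  have h2k : ((2 : ℕ) : k) ≠ 0 := fun h => h6k (by
    rw [show 6 = 2 * 3 from rfl, Nat.cast_mul, h, zero_mul])
  have h3k : ((3 : ℕ) : k) ≠ 0 := fun h => h6k (by
    rw [show 6 = 2 * 3 from rfl, Nat.cast_mul, h, mul_zero])
  by_contra hne
  have hnil := hQ.isNilpotent
  have hsol : Group.IsSolvable Q := inferInstance
  have hQQ : ⁅Q, Q⁆ ≤ Q := H1.commutator_le_of_le_normalizer le_normalizer
  have hQ1 : Q ≠ ⊥ := fun h => hne (by rw [h, commutator_bot_left])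
  have hs6 : s.Coprime 6 := by
    obtain ⟨n, hn⟩ := IsPGroup.iff_card.mp hQ
    rw [hn] at h6
    refine (Nat.coprime_pow_left_iff (Nat.pos_of_ne_zero ?_) _ _).mp h6
    rintro rfl
    exact hQ1 (card_eq_one.mp hn)
  obtain ⟨Z, hZ⟩ : ∃ Z, Z = ⁅Q, Q⁆ ⊓ centralizer (Q : Set X) := ⟨_, rfl⟩
  have hZQ : Z ≤ Q := hZ.le.trans (inf_le_left.trans hQQ)
  have hQZ : Q ≤ centralizer (Z : Set X) := le_centralizer_iff.mp (hZ.le.trans inf_le_right)
  have hZc : IsMulCommutative Z := le_centralizer_iff_isMulCommutative.mp (hZQ.trans hQZ)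
  have hAZ : ψ.range ≤ normalizer (Z : Set X) := hZ ▸ H1.le_normalizer_inf
    (H1.le_normalizer_commutator hAQ hAQ) (H1.le_normalizer_centralizer hAQ)
  obtain ⟨μ, hμ⟩ := exists_wsp (ρ := ρ) hZc le_rfl
    (H1.cast_card_ne_zero_of_isPGroup hs (hQ.to_le hZQ) hsk) (by
      rw [ker_eq_bot_of_faithful hρ, le_bot_iff, hZ]
      exact L.inf_centralizer_ne_bot_of_isNilpotent hQQ (normalizer_commutator_ge_left Q Q) hne)
  have hW := wsp_ne_bot_of_not_le hμ
  obtain ⟨_, h1, h2⟩ := (bot_or_exists_ne_one _).resolve_left (inf_wstab_ne_bot hAZ hAk hfix hW)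
  obtain ⟨⟨a, rfl⟩, haS⟩ := mem_inf.mp h1
  have ha1 : a ≠ 1 := fun h => h2 (by rw [h, map_one])
  have hlt : (wstab Z μ).comap ψ < ⊤ := lt_top_iff_ne_top.mpr fun h => hμ (by
    refine le_trans ?_ ((commutator_mono le_rfl (show ψ.range ≤ wstab Z μ by
      rintro _ ⟨x, rfl⟩; exact h.ge (mem_top x))).trans (commutator_le_fixer hZc))
    exact (commutator_eq_of_inf_centralizer_eq_bot hAZ (H1.coprime_of_le hcop le_rfl hZQ)
      (H1.isSolvable_of_le hZQ hsol) (eq_bot_iff.mpr ((inf_le_inf_right _ hZQ).trans hC.le))).ge)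
  have h3 : zpowers a = (wstab Z μ).comap ψ := eq_of_card_prime (prime_of_lt Nat.prime_two
    Nat.prime_three (card_top.trans hP) hlt fun h => ha1 (mem_bot.mp (h.le haS))).1
    (zpowers_le.mpr haS) (by simpa using ha1)
  have hfix' : ∀ u ∈ wsp ρ Z μ, ρ (ψ a) u = u → u = 0 := fun u hu h =>
    eq_zero_of_fix_inf_wstab hAZ hAk hfix hu fun b hb => by
      obtain ⟨⟨x, rfl⟩, hx⟩ := mem_inf.mp hb
      exact fix_of_mem_zpowers h (MonoidHom.map_zpowers ψ a ▸ mem_map_of_mem ψ (h3.ge hx))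
  have hQS : Q ≤ wstab Z μ := hQZ.trans centralizer_le_wstab
  have hQK : Q ≤ normalizer (fixer ρ (wsp ρ Z μ) : Set X) := hQS.trans wstab_le_normalizer_fixer
  obtain ⟨t, c, ht, hc, htc, hatc, hall⟩ := perm_three_gen a ha1
  have ht' : ψ t * ψ t = 1 := by rw [← map_mul, ht, map_one]
  have hc' : ψ c * ψ c * ψ c = 1 := by rw [← map_mul, ← map_mul, hc, map_one]
  have htc' : ψ t * ψ c * (ψ t)⁻¹ = ψ c * ψ c := by
    rw [← map_inv, ← map_mul, ← map_mul, htc, map_mul]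
  have hA : ψ.range ≤ zpowers (ψ t) ⊔ zpowers (ψ c) := by
    rintro _ ⟨x, rfl⟩
    have b1 : ψ t ∈ zpowers (ψ t) ⊔ zpowers (ψ c) := mem_sup_left (mem_zpowers _)
    have b2 : ψ c ∈ zpowers (ψ t) ⊔ zpowers (ψ c) := mem_sup_right (mem_zpowers _)
    rcases hall x with h | h | h | h | h | h <;> rw [h] <;> try simp only [map_mul, map_one]
    exacts [one_mem _, b2, mul_mem b2 b2, b1, mul_mem b1 b2, mul_mem b1 (mul_mem b2 b2)]
  refine hμ (hZ.le.trans (inf_le_left.trans ?_))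
  rcases hatc with rfl | rfl
  · refine (commutator_le_commutator_involution hnil hAQ hcop h6 hC ⟨c, rfl⟩ ⟨a, rfl⟩ hc' htc'
      hA).trans ?_
    refine H1.commutator_zpowers_le (wstab_le_normalizer_fixer haS) fun y hy => ?_
    rw [← commutatorElement_inv]
    refine inv_mem (commutator_mem_fixer_of_scalar (c := -1) (fun v hv => ?_)
      (fun v hv => apply_mem_wsp (hQS hy) hv) (fun v hv => apply_mem_wsp (inv_mem haS) hv)
      fun v hv => apply_mem_wsp (inv_mem (hQS hy)) hv)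
    rw [neg_one_smul, eq_neg_iff_add_eq_zero]
    refine hfix' _ (add_mem (apply_mem_wsp haS hv) hv) ?_
    rw [map_add, ← rep_mul_apply, ht', map_one, End.one_apply, add_comm]
  · have b1 : ⁅Q, zpowers (ψ a)⁆ ≤ fixer ρ (wsp ρ Z μ) :=
      hh_fixer Nat.prime_three hs (by rintro rfl; norm_num at hs6) h3k hsk ρ hQ (hAQ ⟨a, rfl⟩)
        (by rw [pow_succ, pow_two, hc']) hQS haS (fun x hx u hu => apply_mem_wsp hx hu) hfix'
        fun e he h => by
          have : s ∣ 2 := by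
            rw [show 2 = s ^ e by omega]
            exact dvd_pow_self s (by omega)
          rw [(Nat.prime_dvd_prime_iff_eq hs Nat.prime_two).mp this] at hs6
          norm_num at hs6
    have hcA : zpowers (ψ a) ≤ ψ.range := zpowers_le.mpr ⟨a, rfl⟩
    have b2 := H1.commutator_sup_centralizer (hcA.trans hAQ) (H1.coprime_of_le hcop hcA le_rfl)
      (Or.inr hsol)
    have b3 : ⁅Q ⊓ centralizer (zpowers (ψ a) : Set X),
        Q ⊓ centralizer (zpowers (ψ a) : Set X)⁆ = ⊥ := by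
      refine commutator_eq_bot_of_fpf_involution (b := ψ t) ?_ ht'
        (eq_bot_iff.mpr fun x hx => hC.le (mem_inf.mpr ⟨(mem_inf.mp (mem_inf.mp hx).1).1,
          mem_centralizer_of_le_sup (hA.trans (sup_comm _ _).le) (mem_inf.mp (mem_inf.mp hx).1).2
            (mem_inf.mp hx).2⟩))
      refine H1.le_normalizer_inf (zpowers_le.mpr (hAQ ⟨t, rfl⟩)) (H1.le_normalizer_centralizer
        (zpowers_le.mpr ?_)) (mem_zpowers _)
      refine mem_normalizer_fintype fun x hx => ?_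
      obtain ⟨n, rfl⟩ := mem_zpowers_iff.mp hx
      rw [← conj_zpow, htc']
      exact zpow_mem (mul_mem (mem_zpowers _) (mem_zpowers _)) n
    have b4 : ⁅Q, zpowers (ψ a)⁆ ≤ Q := H1.commutator_le_of_le_normalizer (hcA.trans hAQ)
    have b5 : ⁅Q, ⁅Q, zpowers (ψ a)⁆⁆ ≤ fixer ρ (wsp ρ Z μ) :=
      (le_normalizer_iff_commutator_le_right.mp (normalizer_commutator_ge_left Q _)).trans b1
    refine (commutator_mono le_rfl b2.ge).trans
      (H1.commutator_sup_le (b4.trans hQK) (inf_le_left.trans hQK) b5 ?_)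
    rw [commutator_comm]
    exact (commutator_mono le_rfl b2.ge).trans (H1.commutator_sup_le (b4.trans hQK)
      (inf_le_left.trans hQK) ((commutator_mono inf_le_left le_rfl).trans b5) (b3.le.trans bot_le))

theorem s3_rep (ρ : X →* End k V) (ψ : Equiv.Perm (Fin 3) →* X)
    {Q : Subgroup X} {s : ℕ} (hs : s.Prime) (hsk : (s : k) ≠ 0) (h6k : ((6 : ℕ) : k) ≠ 0)
    (hQ : IsPGroup s Q) (hAQ : ψ.range ≤ normalizer (Q : Set X)) (h6 : (Nat.card Q).Coprime 6)
    (hC : Q ⊓ centralizer (ψ.range : Set X) = ⊥)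
    (hfix : ∀ v, (∀ a ∈ ψ.range, ρ a v = v) → v = 0) : ⁅Q, Q⁆ ≤ ρ.ker := by
  have := Fact.mk hs
  let f := QuotientGroup.mk' ρ.ker
  have hA6 : Nat.card ψ.range ∣ 6 := by
    have := card_range_dvd ψ
    rwa [Nat.card_eq_fintype_card (α := Equiv.Perm (Fin 3)), Fintype.card_perm] at this
  rw [← QuotientGroup.ker_mk' ρ.ker, ← Subgroup.map_eq_bot_iff, map_commutator]
  refine s3_faithful (H1.kerRep_eq_one ρ) (f.comp ψ) hs hsk h6k (hQ.map f) ?_
    (h6.coprime_dvd_left (card_map_dvd Q f)) ?_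
    fun v hv => hfix v fun _ ⟨a, ha⟩ => ha ▸ hv _ ⟨a, rfl⟩
  · rw [← MonoidHom.map_range]
    exact (map_mono hAQ).trans (le_normalizer_map f)
  · rw [← MonoidHom.map_range, H1.map_inf_centralizer_map f hAQ (h6.coprime_dvd_right hA6).symm
      (Or.inr (H1.isSolvable_of_isPGroup hQ)), hC, Subgroup.map_bot]

end Rep

theorem commutator_le_fitting_of_fpf_s3 {G : Type u} [Group G] [Finite G]
    (hG : Group.IsSolvable G) (φ : Equiv.Perm (Fin 3) →* MulAut G)
    (hcop : (Nat.card G).Coprime 6) (hfpf : ∀ g, (∀ a, φ a g = g) → g = 1) :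
    _root_.commutator G ≤ fittingSubgroup G := by
  have hP : Nat.card (Equiv.Perm (Fin 3)) = 2 * 3 := by
    rw [Nat.card_eq_fintype_card, Fintype.card_perm]; rfl
  have hA : Nat.card (H1.sdR φ ⊤) = 2 * 3 := H1.card_sdR_top.trans hP
  have hcop' := H1.coprime_sd (φ := φ) (by rw [hP]; exact hcop.symm)
  have hC : H1.sdL φ ⊤ ⊓ centralizer (H1.sdR φ ⊤ : Set (G ⋊[φ] Equiv.Perm (Fin 3))) = ⊥ := by
    rw [H1.sdL_top_inf_centralizer, H1.sdL_eq_bot]
    exact eq_bot_iff.mpr fun g hg => hfpf g (H1.mem_fixedSub_top.mp hg)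
  have hG' := H1.isSolvable_sdL_top (φ := φ) hG
  have hr : (SemidirectProduct.inr : Equiv.Perm (Fin 3) →* G ⋊[φ] Equiv.Perm (Fin 3)).range =
      H1.sdR φ ⊤ := MonoidHom.range_eq_map _
  have h := commutator_self_le_fitting hG' hcop'
    (commutator_eq_of_inf_centralizer_eq_bot (le_normalizer_of_normal _ _) hcop' hG' hC)
    (kp_le_centralizer Nat.prime_two Nat.prime_three hA (fun h => by
      have := H1.isMulCommutative_sdR.mp (inferInstance : IsMulCommutative (H1.sdR φ ⊤))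
      have h1 := congrArg Subtype.val (this.is_comm.comm ⟨Equiv.swap 0 1, trivial⟩
        ⟨Equiv.swap 1 2, trivial⟩)
      revert h1
      decide) hcop' hC)
    fun s t hs ht hst Q hQG hQ hAQ => by
      have := Fact.mk hs
      refine le_centralizer_pCore_of_rep hcop' hC ht
        ((H1.coprime_card_of_isPGroup hQ
          ((Nat.coprime_primes ht hs).mpr hst.symm)).symm.coprime_dvd_left
          (card_dvd_of_le (H1.commutator_le_of_le_normalizer le_normalizer)))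
        fun k V _ _ _ _ _ _ ρ hAt hfix => ?_
      refine s3_rep ρ SemidirectProduct.inr hs (H1.cast_ne_zero_of_prime_ne ht hs hst)
        (H1.cast_ne_zero_of_coprime ht (by rwa [hA] at hAt)) hQ (by rwa [hr])
        (by
          have := H1.coprime_of_le hcop' le_rfl hQG
          rw [hA] at this
          exact this.symm)
        (by rw [hr]; exact eq_bot_iff.mpr ((inf_le_inf_right _ hQG).trans hC.le)) (by rwa [hr])
  rw [← L.fitTerm_one] at h ⊢
  refine le_trans (fun g hg => h ?_) (L.comap_fitTerm_le 1 SemidirectProduct.inl_injective)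
  rw [← map_commutator]
  exact mem_map_of_mem _ hg

end Cfsg.Agent.H9
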