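/-
Suzuki 2-groups, I: products of automorphisms on a large multiplicative subgroup of a finite field
of characteristic two.
-/
import Cfsg.Agent.P2.Lin

set_option autoImplicit false

namespace Cfsg.Agent.H9.Sz

open Cfsg.Agent.P2

theorem pow_add_inj_aux {i j k l : ℕ} (h1 : i ≤ j) (h2 : k ≤ l) (h3 : i < k)
    (h : 2 ^ i + 2 ^ j = 2 ^ k + 2 ^ l) : False := by
  obtain ⟨j, rfl⟩ := Nat.exists_eq_add_of_le h1
  obtain ⟨l, rfl⟩ := Nat.exists_eq_add_of_le h2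
  obtain ⟨k, rfl⟩ := Nat.exists_eq_add_of_lt h3
  have h4 : 1 + 2 ^ j = 2 * (2 ^ k + 2 ^ (k + l)) :=
    Nat.eq_of_mul_eq_mul_left (Nat.two_pow_pos i) (by rw [mul_add, mul_one, ← pow_add, h]; ring)
  have := Nat.two_pow_pos k
  have := Nat.two_pow_pos (k + l)
  rcases j with _ | j
  · omega
  · rw [pow_succ] at h4
    omega

theorem pow_add_inj {i j k l : ℕ} (h : 2 ^ i + 2 ^ j = 2 ^ k + 2 ^ l) :
    (i = k ∧ j = l) ∨ (i = l ∧ j = k) := by
  have key : ∀ {i j k l : ℕ}, i ≤ j → k ≤ l → 2 ^ i + 2 ^ j = 2 ^ k + 2 ^ l → i = k ∧ j = l :=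
    fun {i j k l} h1 h2 h => by
      obtain rfl : i = k := by
        rcases lt_trichotomy i k with e | e | e
        · exact (pow_add_inj_aux h1 h2 e h).elim
        · exact e
        · exact (pow_add_inj_aux h2 h1 e h.symm).elim
      exact ⟨rfl, Nat.pow_right_injective le_rfl (Nat.add_left_cancel h)⟩
  rcases le_total i j with h1 | h1 <;> rcases le_total k l with h2 | h2
  · exact Or.inl (key h1 h2 h)
  · exact Or.inr (key h1 h2 (by omega))
  · exact Or.inr (key h1 h2 (by omega)).symm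
  · exact Or.inl (key h1 h2 (by omega)).symm

theorem exists_shift {n g i j k l : ℕ} (hg : 4 * g < n) (hi : i < n) (hj : j < n) (hk : k < n)
    (hl : l < n) : ∃ s, (i + s) % n + g < n ∧ (j + s) % n + g < n ∧ (k + s) % n + g < n ∧
      (l + s) % n + g < n := by
  have e : ∀ x < n, ∀ y < n, (x + (n - y)) % n + g < n ↔
      x + g < y ∨ (y ≤ x ∧ x + g < n + y) := by
    intro x hx y hy
    rcases lt_or_ge x y with h | h
    · rw [Nat.mod_eq_of_lt (by omega)]; omega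
    · rw [show x + (n - y) = x - y + n by omega, Nat.add_mod_right, Nat.mod_eq_of_lt (by omega)]
      omega
  by_contra hc
  have h1 := not_exists.1 hc (n - i)
  have h2 := not_exists.1 hc (n - j)
  have h3 := not_exists.1 hc (n - k)
  have h4 := not_exists.1 hc (n - l)
  rw [e _ hi _ hi, e _ hj _ hi, e _ hk _ hi, e _ hl _ hi] at h1
  rw [e _ hi _ hj, e _ hj _ hj, e _ hk _ hj, e _ hl _ hj] at h2
  rw [e _ hi _ hk, e _ hj _ hk, e _ hk _ hk, e _ hl _ hk] at h3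
  rw [e _ hi _ hl, e _ hj _ hl, e _ hk _ hl, e _ hl _ hl] at h4
  omega

theorem small {n r : ℕ} (hn : 0 < n) (h1 : 1 < r) (h2 : r ∣ n) (h3 : r ∣ 2 ^ n - 1) :
    r < 2 ^ ((n - 1) / 4) ∨ (n = 6 ∧ r = 3) := by
  have hr := Nat.le_of_dvd hn h2
  rcases lt_or_ge n 21 with h | h
  · interval_cases n <;> interval_cases r <;> simp_all
  · left
    obtain ⟨g, hg⟩ : ∃ g, (n - 1) / 4 = g + 5 := ⟨(n - 1) / 4 - 5, by omega⟩
    have := Nat.lt_two_pow_self (n := g)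
    rw [hg, pow_add]
    omega

theorem arith {n r N i j k l : ℕ} (hN : r * N + 1 = 2 ^ n) (h1 : 1 < r) (hr : r ∣ n) (hi : i < n)
    (hj : j < n) (hk : k < n) (hl : l < n) (h : 2 ^ i + 2 ^ j ≡ 2 ^ k + 2 ^ l [MOD N]) :
    ((i = k ∧ j = l) ∨ (i = l ∧ j = k)) ∨ (n = 6 ∧ k ≠ l ∧
      ((i = (k + 3) % 6 ∧ j = (l + 3) % 6) ∨ (i = (l + 3) % 6 ∧ j = (k + 3) % 6))) := by
  rcases small (by omega) h1 hr ⟨N, by omega⟩ with h2 | ⟨rfl, rfl⟩
  · left
    generalize hg : (n - 1) / 4 = g at h2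
    obtain ⟨s, a1, a2, a3, a4⟩ := exists_shift (g := g) (by omega) hi hj hk hl
    have b1 : 2 ^ n ≡ 1 [MOD N] := by
      rw [← hN]
      exact Nat.ModEq.symm ((Nat.modEq_iff_dvd' (by omega)).2 (by simp))
    have b2 : ∀ x, 2 ^ ((x + s) % n) ≡ 2 ^ x * 2 ^ s [MOD N] := fun x => by
      rw [← pow_add]
      conv_rhs => rw [← Nat.mod_add_div (x + s) n, pow_add, pow_mul]
      simpa using (Nat.ModEq.refl (2 ^ ((x + s) % n))).mul (b1.pow ((x + s) / n)).symm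
    have b3 : 2 ^ ((i + s) % n) + 2 ^ ((j + s) % n) ≡ 2 ^ ((k + s) % n) + 2 ^ ((l + s) % n)
        [MOD N] := ((b2 i).add (b2 j)).trans (by
      rw [← add_mul]
      exact (h.mul_right _).trans (add_mul _ _ (2 ^ s) ▸ ((b2 k).add (b2 l)).symm))
    obtain ⟨m, rfl⟩ : ∃ m, n = m + 1 + g := ⟨n - 1 - g, by omega⟩
    have b4 : 2 ^ m + 2 ^ m < N := by
      by_contra hc
      have c1 := Nat.mul_le_mul (Nat.succ_le_of_lt h2) (not_lt.1 hc)
      have c2 := Nat.two_pow_pos m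
      have c3 : 1 < N := by
        by_contra c3
        have : r * N ≤ r * 1 := Nat.mul_le_mul_left r (not_lt.1 c3)
        have := Nat.two_pow_pos g
        rw [pow_add, pow_succ] at hN
        nlinarith
      rw [pow_add, pow_succ] at hN
      nlinarith
    have b5 : ∀ x, x + g < m + 1 + g → 2 ^ x ≤ 2 ^ m := fun x hx =>
      Nat.pow_le_pow_right two_pos (by omega)
    have b6 := b3.eq_of_lt_of_lt ((add_le_add (b5 _ a1) (b5 _ a2)).trans_lt b4)
      ((add_le_add (b5 _ a3) (b5 _ a4)).trans_lt b4)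
    have b7 : ∀ x < m + 1 + g, ∀ y < m + 1 + g, (x + s) % (m + 1 + g) = (y + s) % (m + 1 + g) →
        x = y := fun x hx y hy e => (Nat.ModEq.add_right_cancel' s e).eq_of_lt_of_lt hx hy
    exact (pow_add_inj b6).imp (fun e => ⟨b7 _ hi _ hk e.1, b7 _ hj _ hl e.2⟩)
      fun e => ⟨b7 _ hi _ hl e.1, b7 _ hj _ hk e.2⟩
  · obtain rfl : N = 21 := by omega
    revert h
    interval_cases i <;> interval_cases j <;> interval_cases k <;> interval_cases l <;> decide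

variable {F : Type*} [Field F] [Fintype F] [CharP F 2] {n : ℕ}

theorem exists_pow (hc : Fintype.card F = 2 ^ n) (σ : F ≃+* F) : ∃ i < n, ∀ x, σ x = x ^ 2 ^ i := by
  have : Fact (Nat.Prime 2) := ⟨Nat.prime_two⟩
  let _ : Algebra (ZMod 2) F := ZMod.algebra F 2
  obtain ⟨i, hi⟩ := (FiniteField.bijective_frobeniusAlgHom_pow (ZMod 2) F).2
    { (σ : F →+* F) with
      commutes' := fun c => by
        obtain ⟨k, rfl⟩ := ZMod.natCast_zmod_surjective c
        simp }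
  have h1 : Module.finrank (ZMod 2) F = n := Nat.pow_right_injective le_rfl (by
    simp only [← hc, Module.card_eq_pow_finrank (K := ZMod 2) (V := F), ZMod.card])
  refine ⟨i, h1 ▸ i.2, fun x => ?_⟩
  have := DFunLike.congr_fun hi x
  simp only [AlgHom.coe_pow, FiniteField.coe_frobeniusAlgHom, pow_iterate, ZMod.card] at this
  exact this.symm

theorem exists_aut (i : ℕ) : ∃ σ : F ≃+* F, ∀ x, σ x = x ^ 2 ^ i :=
  have : Fact (Nat.Prime 2) := ⟨Nat.prime_two⟩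
  ⟨iterateFrobeniusEquiv F 2 i, fun _ => rfl⟩

theorem aut_comm (σ τ : F ≃+* F) (x : F) : σ (τ x) = τ (σ x) := by
  obtain ⟨n, -, hn⟩ := FiniteField.card F 2
  obtain ⟨i, -, hi⟩ := exists_pow hn σ
  rw [hi, hi, map_pow]

theorem key (hc : Fintype.card F = 2 ^ n) {M : Subgroup Fˣ} (hM : M.index ∣ n)
    {σ₁ σ₂ τ₁ τ₂ : F ≃+* F} (h : ∀ a ∈ M, σ₁ a * σ₂ a = τ₁ a * τ₂ a) :
    ∃ ι : F ≃+* F, (∀ x, ι (ι x) = x) ∧
      ((∀ x, σ₁ x = τ₁ (ι x) ∧ σ₂ x = τ₂ (ι x)) ∨ ∀ x, σ₁ x = τ₂ (ι x) ∧ σ₂ x = τ₁ (ι x)) ∧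
      ((∀ x, ι x = x) ∨ (τ₁ ≠ τ₂ ∧ Fintype.card F = 64 ∧ ∀ x, ι x = x ^ 8)) := by
  classical
  by_cases h1 : M.index = 1
  · refine ⟨RingEquiv.refl F, fun _ => rfl, (two_two (σ₁ := σ₁) (σ₂ := σ₂) (τ₁ := τ₁) (τ₂ := τ₂)
      fun x => ?_).imp (fun e x => by simp [e.1, e.2]) (fun e x => by simp [e.1, e.2]),
      Or.inl fun _ => rfl⟩
    by_cases hx : x = 0
    · simp [hx]
    · exact h (Units.mk0 x hx) (Subgroup.index_eq_one.1 h1 ▸ Subgroup.mem_top _)
  obtain ⟨i, hi, e1⟩ := exists_pow hc σ₁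
  obtain ⟨j, hj, e2⟩ := exists_pow hc σ₂
  obtain ⟨k, hk, e3⟩ := exists_pow hc τ₁
  obtain ⟨l, hl, e4⟩ := exists_pow hc τ₂
  obtain ⟨g, hg⟩ := IsCyclic.exists_ofOrder_eq_natCard (α := M)
  have h2 := h g g.2
  rw [e1, e2, e3, e4, ← pow_add, ← pow_add, ← Units.val_pow_eq_pow_val, ← Units.val_pow_eq_pow_val,
    Units.val_inj, pow_eq_pow_iff_modEq, Subgroup.orderOf_coe, hg] at h2
  have h3 : M.index * Nat.card M + 1 = 2 ^ n := by
    rw [M.index_mul_card, Nat.card_units, Nat.card_eq_fintype_card, hc,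
      Nat.sub_add_cancel Nat.one_le_two_pow]
  have h4 := M.index_ne_zero_of_finite
  rcases arith h3 (by omega) hM hi hj hk hl h2 with h5 | ⟨rfl, h5, h6⟩
  · exact ⟨RingEquiv.refl F, fun _ => rfl, h5.imp (fun e x => by simp [e1, e2, e3, e4, e.1, e.2])
      (fun e x => by simp [e1, e2, e3, e4, e.1, e.2]), Or.inl fun _ => rfl⟩
  obtain ⟨ι, hι⟩ := exists_aut (F := F) 3
  have h7 : ∀ (x : F) (m : ℕ), x ^ 2 ^ ((m + 3) % 6) = (x ^ 2 ^ 3) ^ 2 ^ m := fun x m => by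
    rw [← pow_mul, ← pow_add, add_comm 3]
    conv_rhs => rw [← Nat.mod_add_div (m + 3) 6, pow_add, pow_mul, pow_mul, ← hc,
      FiniteField.pow_card_pow]
  refine ⟨ι, fun x => ?_, h6.imp (fun e x => by simp only [e1, e2, e3, e4, e.1, e.2, hι, h7, and_self])
    (fun e x => by simp only [e1, e2, e3, e4, e.1, e.2, hι, h7, and_self]),
    Or.inr ⟨fun e => h5 ?_, hc, hι⟩⟩
  · rw [hι, hι, ← pow_mul, ← pow_add, ← hc, FiniteField.pow_card]
  · obtain ⟨w, hw⟩ := IsCyclic.exists_ofOrder_eq_natCard (α := Fˣ)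
    have := (e3 w).symm.trans (e ▸ e4 w)
    rw [← Units.val_pow_eq_pow_val, ← Units.val_pow_eq_pow_val, Units.val_inj, pow_eq_pow_iff_modEq,
      hw, Nat.card_units, Nat.card_eq_fintype_card, hc] at this
    revert this
    interval_cases k <;> interval_cases l <;> decide

theorem coef_semi {f g : F →+ F} {κ μ : F} {ρ : F ≃+* F} (h : ∀ x, g (κ * ρ x) = μ * ρ (f x))
    (σ : F ≃+* F) : coef g σ * σ κ = μ * ρ (coef f σ) :=
  aut_ext (c := fun σ => coef g σ * σ κ) (c' := fun σ => μ * ρ (coef f σ)) (fun x => by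
    obtain ⟨x, rfl⟩ := ρ.surjective x
    have := h x
    rw [coef_spec g, coef_spec f, map_sum, Finset.mul_sum] at this
    simpa [mul_assoc, aut_comm ρ] using this) σ

variable (hc : Fintype.card F = 2 ^ n) {M : Subgroup Fˣ} (hM : M.index ∣ n)
include hc hM

theorem alt_eq_zero (B : F → F → F) (h1 : ∀ x y z, B (x + y) z = B x z + B y z)
    (h2 : ∀ x y z, B x (y + z) = B x y + B x z) (h0 : ∀ x, B x x = 0)
    (he : ∀ a ∈ M, ∀ x y, B (a * x) (a * y) = a * B x y) (x y : F) : B x y = 0 := by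
  let B₁ : F → F →+ F := fun x => AddMonoidHom.mk' (B x) (h2 x)
  let B₂ : (F ≃+* F) → F →+ F := fun τ => AddMonoidHom.mk' (fun x => coef (B₁ x) τ) fun x y => by
    rw [← coef_add]
    exact congrArg (coef · τ) (AddMonoidHom.ext (h1 x y))
  obtain ⟨ψ, hψ⟩ := exists_aut (F := F) 1
  have h3 : ∀ τ σ, coef (B₂ τ) σ ≠ 0 → σ = ψ.symm ∧ τ = ψ.symm := fun τ σ h3 => by
    obtain ⟨ι, -, h4, h5⟩ := key hc hM (σ₁ := σ) (σ₂ := τ) (τ₁ := ψ.symm) (τ₂ := ψ.symm)
      fun a ha => by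
        have a0 : τ a ≠ 0 := by simp
        have := coef_equivar (f := B₂ τ) (g := B₂ τ) (κ := a) (μ := a / τ a) (fun x => by
          rw [div_mul_eq_mul_div, eq_div_iff a0]
          exact coef_equivar (f := B₁ x) (g := B₁ (a * x)) (he a ha x) τ) σ
        rw [← map_mul, ← pow_two, show (a : F) ^ 2 = ψ a from (hψ a).symm, ψ.symm_apply_apply]
        field_simp at this
        exact this
    have h6 := h5.resolve_right fun e => e.1 rfl
    simp only [h6, or_self] at h4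
    exact ⟨RingEquiv.ext fun x => (h4 x).1, RingEquiv.ext fun x => (h4 x).2⟩
  have h4 : ∀ x y, B x y = coef (B₂ ψ.symm) ψ.symm * ψ.symm x * ψ.symm y := fun x y => by
    rw [← eq_mul_of_coef fun σ hσ => by_contra fun e => hσ (h3 _ _ e).1]
    exact eq_mul_of_coef (f := B₁ x) (fun τ hτ => by
      change B₂ τ x = 0
      rw [eq_zero_of_coef (f := B₂ τ) fun σ => by_contra fun e => hτ (h3 _ _ e).2]; rfl) y
  have h5 := h4 1 1
  rw [h0, map_one, mul_one, mul_one] at h5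
  rw [h4, ← h5, zero_mul, zero_mul]

theorem eq_of_graph {σ τ : F ≃+* F} (Γ : AddSubgroup (F × F)) (h1 : ∀ p ∈ Γ, p.1 = 0 → p.2 = 0)
    {p : F × F} (hp : p ∈ Γ) (h2 : p.2 ≠ 0)
    (h3 : ∀ a ∈ M, ((a : F) / σ a * p.1, (a : F) / τ a * p.2) ∈ Γ) : σ = τ := by
  classical
  have : Fact (Nat.Prime 2) := ⟨Nat.prime_two⟩
  let _ : Algebra (ZMod 2) F := ZMod.algebra F 2
  obtain ⟨l, hl⟩ : ∃ l : F →+ F, ∀ p ∈ Γ, l p.1 = p.2 := by
    let U : Submodule (ZMod 2) (F × F) := AddSubgroup.toZModSubmodule 2 Γ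
    obtain ⟨l, hl⟩ := LinearMap.exists_leftInverse_of_injective
      ((LinearMap.fst (ZMod 2) F F).comp U.subtype) (LinearMap.ker_eq_bot'.2 fun p hp =>
        Subtype.ext (Prod.ext hp (h1 _ p.2 hp)))
    exact ⟨(((LinearMap.snd (ZMod 2) F F).comp U.subtype).comp l).toAddMonoidHom, fun p hp =>
      show (l p.1).1.2 = p.2 from congrArg (fun u : U => u.1.2) (DFunLike.congr_fun hl ⟨p, hp⟩)⟩
  let χ : (F ≃+* F) → M →* F := fun θ =>
    { toFun := fun a => ((a : Fˣ) : F) / θ (a : Fˣ)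
      map_one' := by simp
      map_mul' := fun a b => by simp [div_mul_div_comm] }
  obtain ⟨μ, hμ⟩ : ∃ μ : F ≃+* F, (μ : F →* F).comp (χ σ) = χ τ := by
    by_contra hn
    refine (linearIndependent_monoidHom M F).notMem_span_image
      (s := Set.range fun μ : F ≃+* F => (μ : F →* F).comp (χ σ)) hn ?_
    have : (χ τ : M → F) = ∑ μ : F ≃+* F, (coef l μ * μ p.1 / p.2) •
        (((μ : F →* F).comp (χ σ) : M →* F) : M → F) := by
      funext a
      have := hl _ (h3 a a.2)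
      rw [coef_spec] at this
      refine mul_right_cancel₀ h2 (this.symm.trans ?_)
      rw [Finset.sum_apply, Finset.sum_mul]
      refine Finset.sum_congr rfl fun μ _ => ?_
      simp only [map_mul, Pi.smul_apply, smul_eq_mul]
      field_simp
      exact mul_right_comm _ _ _
    rw [this]
    exact Submodule.sum_mem _ fun μ _ => Submodule.smul_mem _ _
      (Submodule.subset_span ⟨_, ⟨μ, rfl⟩, rfl⟩)
  obtain ⟨ι, h4, h5, -⟩ := key hc hM (σ₁ := μ) (σ₂ := τ) (τ₁ := RingEquiv.refl F)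
    (τ₂ := σ.trans μ) fun a ha => by
      have := DFunLike.congr_fun hμ ⟨a, ha⟩
      change μ (a / σ a) = a / τ a at this
      rw [map_div₀, div_eq_div_iff (by simp) (by simp)] at this
      exact this
  refine RingEquiv.ext fun x => ?_
  rcases h5 with h5 | h5
  · rw [(h5 x).2, RingEquiv.trans_apply, (h5 _).1, RingEquiv.refl_apply, aut_comm ι, h4]
  · have := μ.injective (h5 (ι x)).1
    rw [(h5 x).2, RingEquiv.refl_apply, this, h4]
    rfl

omit hc hM in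
theorem exc (hc : Fintype.card F = 64) {σ : F ≃+* F} (hσ : ∀ x, σ x = x ^ 8) {c : F} (c0 : c ≠ 0)
    (h : ∀ a : F, a ≠ 0 → ∃ (ψ : F ≃+* F) (s : F), s * c * σ a = a * ψ (ψ c) ∧ σ s * σ s = s) :
    False := by
  obtain ⟨w, hw⟩ := IsCyclic.exists_ofOrder_eq_natCard (α := Fˣ)
  rw [Nat.card_units, Nat.card_eq_fintype_card, hc] at hw
  obtain ⟨ψ, s, h1, h2⟩ := h w w.ne_zero
  obtain ⟨i, -, hi⟩ := exists_pow (n := 6) hc ψ
  have p63 : ∀ x : F, x ≠ 0 → x ^ 63 = 1 := fun x hx => by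
    simpa [hc] using FiniteField.pow_card_sub_one_eq_one x hx
  have s0 : s ≠ 0 := by
    rintro rfl
    simp [c0] at h1
  have s15 : s ^ 15 = 1 := mul_right_cancel₀ s0 (by rw [hσ] at h2; linear_combination h2)
  have s3 : s ^ 3 = 1 := by
    have := p63 s s0
    rwa [show 63 = 15 * 4 + 3 from rfl, pow_add, pow_mul, s15, one_pow, one_mul] at this
  have c21 : ψ (ψ c) ^ 21 = c ^ 21 := by
    obtain ⟨m, hm⟩ : ∃ m, 2 ^ i * 2 ^ i = 3 * m + 1 := by
      have : 2 ^ i * 2 ^ i ≡ 1 [MOD 3] := by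
        rw [← mul_pow]
        simpa using (show 2 * 2 ≡ 1 [MOD 3] by decide).pow i
      exact ⟨2 ^ i * 2 ^ i / 3, by unfold Nat.ModEq at this; omega⟩
    rw [hi, hi, ← pow_mul, ← pow_mul, ← mul_assoc, hm, show (3 * m + 1) * 21 = 63 * m + 21 by ring,
      pow_add, pow_mul, p63 c c0, one_pow, one_mul]
  have h3 := congrArg (· ^ 21) h1
  simp only [mul_pow, c21, hσ] at h3
  rw [show 21 = 3 * 7 from rfl, pow_mul s, s3, one_pow, one_mul, mul_comm] at h3
  have h4 := mul_right_cancel₀ (pow_ne_zero _ c0) h3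
  rw [← pow_mul, ← Units.val_pow_eq_pow_val, ← Units.val_pow_eq_pow_val, Units.val_inj,
    pow_eq_pow_iff_modEq, hw] at h4
  exact absurd h4 (by decide)

theorem cross {σ τ : F ≃+* F} (hσ : ∃ x, σ x ≠ x) (hτ : ∃ x, τ x ≠ x) {c d : F} (c0 : c ≠ 0)
    (d0 : d ≠ 0) (h0 : ∀ a ∈ M, τ (a / σ a) = a / σ a)
    (h1 : ∀ a : F, a ≠ 0 → ∃ (ψ : F ≃+* F) (s : F), s * c * σ a = a * ψ (ψ c) ∧ σ s * σ s = s)
    (h2 : ∀ a : F, a ≠ 0 → ∃ (ψ : F ≃+* F) (s : F), s * d * τ a = a * ψ (ψ d) ∧ τ s * τ s = s) :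
    False := by
  obtain ⟨ι, -, h5, h6⟩ := key hc hM (σ₁ := τ) (σ₂ := σ) (τ₁ := RingEquiv.refl F)
    (τ₂ := σ.trans τ) fun a ha => by
      have := h0 a ha
      rw [map_div₀, div_eq_div_iff (by simp) (by simp)] at this
      exact this
  obtain ⟨x, hx⟩ := hσ
  obtain ⟨y, hy⟩ := hτ
  rcases h5 with h5 | h5 <;> rcases h6 with h6 | ⟨-, h6, h7⟩
  · exact hy ((h5 y).1.trans (h6 y))
  · exact exc h6 (fun x => (h5 x).1.trans (h7 x)) d0 h2
  · exact hx ((h5 x).2.trans (h6 x))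
  · exact exc h6 (fun x => (h5 x).2.trans (h7 x)) c0 h1

end Cfsg.Agent.H9.Sz
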