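/-
Suzuki 2-groups, II: a group of odd order acting semilinearly and transitively on the involutions.
-/
import Cfsg.Agent.P2.TwoGroup
import Cfsg.Agent.H9.Sz1

set_option autoImplicit false
set_option linter.unusedSectionVars false

namespace Cfsg.Agent.H9.Sz

open Subgroup Cfsg Cfsg.Agent Cfsg.Agent.FT Cfsg.Agent.P2
open scoped commutatorElement

universe u

variable {G : Type u} [Group G] [Finite G] {F : Type*} [Field F] [Fintype F] [CharP F 2]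

theorem fpf_mod {S A : Subgroup G} {g : G} (h : ∀ x ∈ S, g * x = x * g → x = 1)
    (hA : A ≤ S) (hgA : g ∈ 𝐍(A)) {u : G} (hu : u ∈ S) (hm : (g * u * g⁻¹)⁻¹ * u ∈ A) : u ∈ A := by
  have inj : ∀ a ∈ S, ∀ b ∈ S, (g * a * g⁻¹)⁻¹ * a = (g * b * g⁻¹)⁻¹ * b → a = b := by
    intro a ha b hb e
    have := h (b * a⁻¹) (S.mul_mem hb (S.inv_mem ha)) (by
      have e2 : b = g * b * g⁻¹ * ((g * a * g⁻¹)⁻¹ * a) := by rw [e]; group
      calc g * (b * a⁻¹) = (g * b * g⁻¹ * ((g * a * g⁻¹)⁻¹ * a)) * a⁻¹ * g := by group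
        _ = b * a⁻¹ * g := by rw [← e2])
    exact (mul_inv_eq_one.mp this).symm
  let f : A → A := fun a => ⟨(g * a * g⁻¹)⁻¹ * a,
    A.mul_mem (A.inv_mem ((mem_normalizer_iff.mp hgA a).mp a.2)) a.2⟩
  have hf : Function.Injective f := fun a b e =>
    Subtype.ext (inj a (hA a.2) b (hA b.2) (congrArg Subtype.val e))
  obtain ⟨a, ha⟩ := Finite.surjective_of_injective hf ⟨_, hm⟩
  rw [← inj a (hA a.2) u hu (congrArg Subtype.val ha)]
  exact a.2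

/-- The 2-group `S` has central involutions, and `K` acts transitively and semilinearly on the
subgroup `Z` of involutions. -/
structure Suz (S K Z : Subgroup G) (φ α : G → F) (ρ : G → F ≃+* F) (M : Subgroup Fˣ) (n : ℕ) :
    Prop where
  pgrp : IsPGroup 2 S
  norm : K ≤ 𝐍(S)
  odd : 𝐨(K).Coprime 2
  memZ : ∀ x, x ∈ Z ↔ x ∈ S ∧ x * x = 1
  cent : ∀ x ∈ S, ∀ z ∈ Z, Commute x z
  add : ∀ x ∈ Z, ∀ y ∈ Z, φ (x * y) = φ x + φ y
  ker : ∀ x ∈ Z, φ x = 0 → x = 1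
  surj : ∀ y, ∃ x ∈ Z, φ x = y
  conj : ∀ g ∈ K, ∀ x ∈ Z, φ (g * x * g⁻¹) = α g * ρ g (φ x)
  tr : ∀ x y : F, x ≠ 0 → y ≠ 0 → ∃ g ∈ K, α g * ρ g x = y
  sqr : ∀ g ∈ K, ∃ ψ : F ≃+* F, ∀ x, ρ g x = ψ (ψ x)
  mul : ∀ m ∈ M, ∃ g ∈ K, α g = m ∧ ∀ x, ρ g x = x
  card : Fintype.card F = 2 ^ n
  idx : M.index ∣ n
  two : 2 ≤ n

/-- An abelian invariant subgroup of exponent `2 ^ (e + 1)`. -/
structure AbInv (S K Z A : Subgroup G) (e : ℕ) : Prop where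
  ge : Z ≤ A
  le : A ≤ S
  comm : ∀ a ∈ A, ∀ b ∈ A, Commute a b
  nS : S ≤ 𝐍(A)
  nK : K ≤ 𝐍(A)
  exp : ∀ a ∈ A, a ^ 2 ^ (e + 1) = 1
  exp' : ∃ a ∈ A, a ^ 2 ^ e ≠ 1

/-- `f` identifies `C / A` with an additive subgroup of `F`, equivariantly. -/
structure Mon (K A C : Subgroup G) (α : G → F) (ρ : G → F ≃+* F) (σ : F ≃+* F) (f : G → F) :
    Prop where
  add : ∀ u ∈ C, ∀ v ∈ C, f (u * v) = f u + f v
  ker : ∀ u ∈ C, f u = 0 ↔ u ∈ A
  conj : ∀ g ∈ K, ∀ u ∈ C, f (g * u * g⁻¹) * σ (α g) = α g * ρ g (f u)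
  ne : ∃ x, σ x ≠ x

variable {S K Z A C : Subgroup G} {φ α : G → F} {ρ : G → F ≃+* F} {M : Subgroup Fˣ} {n e : ℕ}

namespace Suz

variable (h : Suz S K Z φ α ρ M n)
include h

theorem Z_le : Z ≤ S := fun x hx => ((h.memZ x).mp hx).1

theorem sq {z : G} (hz : z ∈ Z) : z * z = 1 := ((h.memZ z).mp hz).2

theorem conjZ {x z : G} (hx : x ∈ S) (hz : z ∈ Z) : x * z * x⁻¹ = z := by
  rw [(h.cent x hx z hz).eq, mul_inv_cancel_right]

theorem one : φ 1 = 0 := by simpa using h.add 1 Z.one_mem 1 Z.one_mem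

theorem inv {x : G} (hx : x ∈ Z) : φ x⁻¹ = φ x := by rw [inv_eq_of_mul_eq_one_right (h.sq hx)]

theorem φ_inj {x y : G} (hx : x ∈ Z) (hy : y ∈ Z) (e : φ x = φ y) : x = y :=
  inv_mul_eq_one.mp (h.ker _ (Z.mul_mem (Z.inv_mem hx) hy) (by
    rw [h.add _ (Z.inv_mem hx) _ hy, h.inv hx, e, CharTwo.add_self_eq_zero]))

theorem φ_eq_zero {x : G} (hx : x ∈ Z) : φ x = 0 ↔ x = 1 := ⟨h.ker x hx, fun e => e ▸ h.one⟩

theorem normZ : K ≤ 𝐍(Z) := fun g hg =>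
  mem_norm_of_conj_le fun x hx => by
    obtain ⟨y, hy, rfl⟩ := mem_conj'.mp hx
    refine (h.memZ _).mpr ⟨H1.conj_mem_of_le_normalizer h.norm hg (h.Z_le hy), ?_⟩
    rw [show g * y * g⁻¹ * (g * y * g⁻¹) = g * (y * y) * g⁻¹ by group, h.sq hy]; group

theorem α_ne {g : G} (hg : g ∈ K) : α g ≠ 0 := fun e => by
  obtain ⟨z, hz, h1⟩ := h.surj 1
  have := h.conj g hg z hz
  rw [e, zero_mul, h.φ_eq_zero (H1.conj_mem_of_le_normalizer h.normZ hg hz), conj_eq_one_iff] at this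
  rw [this, h.one] at h1
  exact zero_ne_one h1

theorem pow_mem {x : G} (hx : x ∈ S) {m : ℕ} (e : x ^ 2 ^ (m + 1) = 1) : x ^ 2 ^ m ∈ Z :=
  (h.memZ _).mpr ⟨S.pow_mem hx _, by rw [← pow_add, ← two_mul, ← pow_succ', e]⟩

theorem pow_eq_one {z : G} (hz : z ∈ Z) {m : ℕ} (hm : m ≠ 0) : z ^ 2 ^ m = 1 := by
  obtain ⟨m, rfl⟩ := Nat.exists_eq_succ_of_ne_zero hm
  rw [pow_succ', pow_mul, pow_two, h.sq hz, one_pow]

theorem exists_fpf : ∃ g ∈ K, (∀ x, ρ g x = x) ∧ ∀ x ∈ S, g * x = x * g → x = 1 := by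
  obtain ⟨m, hm, hm1⟩ : ∃ m ∈ M, m ≠ 1 := by
    by_contra hn
    push Not at hn
    have h1 := Nat.le_of_dvd (by have := h.two; omega) h.idx
    rw [(eq_bot_iff_forall M).2 hn, index_bot, Nat.card_units, Nat.card_eq_fintype_card,
      h.card] at h1
    obtain ⟨k, rfl⟩ := Nat.exists_eq_add_of_le' h.two
    have := Nat.lt_two_pow_self (n := k)
    rw [pow_add] at h1
    omega
  obtain ⟨g, hg, h1, h2⟩ := h.mul m hm
  refine ⟨g, hg, h2, fun x hx e => by_contra fun hx1 => ?_⟩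
  obtain ⟨k, hk⟩ := h.pgrp ⟨x, hx⟩
  have hk' : x ^ 2 ^ k = 1 := congrArg Subtype.val hk
  clear hk
  induction k with
  | zero => exact hx1 (by simpa using hk')
  | succ k ih =>
    have hz := h.pow_mem hx hk'
    have := h.conj g hg _ hz
    rw [(Commute.pow_right e _).eq, mul_inv_cancel_right, h1, h2] at this
    exact ih (h.ker _ hz (by_contra fun h0 => hm1 (Units.ext (mul_right_cancel₀ h0
      (this.symm.trans (one_mul _).symm)))))

/-- An equivariant biadditive map `C / A × F → F` is monomial. -/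
theorem monomial (hA : A ≤ S) (nA : K ≤ 𝐍(A)) (c : Cov S K A C) (η : G → F →+ F)
    (hmul : ∀ u ∈ C, ∀ v ∈ C, η (u * v) = η u + η v) (h0 : ∀ u ∈ A, η u = 0)
    (hconj : ∀ g ∈ K, ∀ u ∈ C, ∀ x, η (g * u * g⁻¹) (α g * ρ g x) = α g * ρ g (η u x))
    (hne : ∃ u ∈ C, η u ≠ 0) :
    ∃ (σ : F ≃+* F) (f : G → F), (∀ u ∈ C, ∀ x, η u x = f u * σ x) ∧ Mon K A C α ρ σ f := by
  have cadd : ∀ σ, ∀ u ∈ C, ∀ v ∈ C, coef (η (u * v)) σ = coef (η u) σ + coef (η v) σ :=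
    fun σ u hu v hv => by rw [hmul u hu v hv, coef_add]
  have cA : ∀ σ, ∀ u ∈ A, coef (η u) σ = 0 := fun σ u hu => by rw [h0 u hu, coef_zero]
  have cinv : ∀ σ, ∀ u ∈ C, coef (η u⁻¹) σ = coef (η u) σ := fun σ u hu => by
    have := cadd σ u hu _ (C.inv_mem hu)
    rw [mul_inv_cancel, cA σ 1 A.one_mem] at this
    exact (CharTwo.add_eq_zero.1 this.symm).symm
  have cconj : ∀ σ, ∀ g ∈ K, ∀ u ∈ C, coef (η (g * u * g⁻¹)) σ * σ (α g) =
      α g * ρ g (coef (η u) σ) := fun σ g hg u hu => coef_semi (hconj g hg u hu) σ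
  have hcC : ∀ g ∈ K, ∀ u ∈ C, g * u * g⁻¹ ∈ C := fun g hg u hu =>
    H1.conj_mem_of_le_normalizer c.nK hg hu
  have cker : ∀ σ, (∃ u ∈ C, coef (η u) σ ≠ 0) → ∀ u ∈ C, coef (η u) σ = 0 → u ∈ A := by
    rintro σ ⟨u₀, hu₀, h₀⟩
    let W : Subgroup G :=
      { carrier := {u | u ∈ C ∧ coef (η u) σ = 0}
        one_mem' := ⟨C.one_mem, cA σ 1 A.one_mem⟩
        mul_mem' := fun {a b} ha hb => ⟨C.mul_mem ha.1 hb.1, by
          rw [cadd σ a ha.1 b hb.1, ha.2, hb.2, add_zero]⟩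
        inv_mem' := fun {a} ha => ⟨C.inv_mem ha.1, by rw [cinv σ a ha.1, ha.2]⟩ }
    have hW : K ≤ 𝐍(W) := by
      intro g hg
      refine mem_norm_of_conj_le fun x hx => ?_
      obtain ⟨y, hy, rfl⟩ := mem_conj'.mp hx
      have := cconj σ g hg y hy.1
      rw [hy.2, map_zero, mul_zero, mul_eq_zero, map_eq_zero] at this
      exact ⟨hcC g hg y hy.1, this.resolve_right (h.α_ne hg)⟩
    rcases c.irr W (fun a ha => ⟨c.lt.le ha, cA σ a ha⟩) (fun a ha => ha.1) hW with h | h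
    · intro u hu h0
      rw [← h]; exact ⟨hu, h0⟩
    · have : u₀ ∈ W := h ▸ hu₀
      exact absurd this.2 h₀
  obtain ⟨σ, hσ⟩ : ∃ σ, ∃ u ∈ C, coef (η u) σ ≠ 0 := by
    by_contra hn
    push Not at hn
    obtain ⟨u, hu, h1⟩ := hne
    exact h1 (eq_zero_of_coef fun σ => hn σ u hu)
  refine ⟨σ, fun u => coef (η u) σ, fun u hu => eq_mul_of_coef fun τ hτ => by_contra fun h1 => ?_,
    cadd σ, fun u hu => ⟨cker σ hσ u hu, cA σ u⟩, cconj σ, by_contra fun hn => ?_⟩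
  · let Γ : AddSubgroup (F × F) :=
      { carrier := {p | ∃ v ∈ C, p = (coef (η v) σ, coef (η v) τ)}
        zero_mem' := ⟨1, C.one_mem, by rw [cA σ 1 A.one_mem, cA τ 1 A.one_mem]; rfl⟩
        add_mem' := by
          rintro _ _ ⟨v, hv, rfl⟩ ⟨w, hw, rfl⟩
          exact ⟨_, C.mul_mem hv hw, by rw [cadd σ v hv w hw, cadd τ v hv w hw]; rfl⟩
        neg_mem' := by
          rintro _ ⟨v, hv, rfl⟩
          exact ⟨v, hv, by simp only [Prod.neg_mk, CharTwo.neg_eq]⟩ }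
    refine hτ (eq_of_graph h.card h.idx Γ ?_ ⟨u, hu, rfl⟩ h1 fun m hm => ?_).symm
    · rintro _ ⟨v, hv, rfl⟩ h2
      exact cA τ v (cker σ hσ v hv h2)
    · obtain ⟨g, hg, e1, e2⟩ := h.mul m hm
      refine ⟨_, hcC g hg u hu, Prod.ext ?_ ?_⟩
      · have := cconj σ g hg u hu
        rw [e1, e2] at this
        exact (div_mul_eq_mul_div _ _ _).trans ((div_eq_iff (by simp)).2 this.symm)
      · have := cconj τ g hg u hu
        rw [e1, e2] at this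
        exact (div_mul_eq_mul_div _ _ _).trans ((div_eq_iff (by simp)).2 this.symm)
  · push Not at hn
    obtain ⟨g, hg, e1, e2⟩ := h.exists_fpf
    obtain ⟨u, hu, h1⟩ := id hσ
    refine h1 (cA σ u (fpf_mod e2 hA (nA hg) (c.le hu) (cker σ hσ _
      (C.mul_mem (C.inv_mem (hcC g hg u hu)) hu) ?_)))
    have := cconj σ g hg u hu
    rw [hn, e1, mul_comm] at this
    rw [cadd σ _ (C.inv_mem (hcC g hg u hu)) u hu, cinv σ _ (hcC g hg u hu),
      mul_left_cancel₀ (h.α_ne hg) this, CharTwo.add_self_eq_zero]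

end Suz

/-- The ratios of the values of `g`. -/
theorem Mon.ratio {σ τ : F ≃+* F} {g : G → F} (m : Mon K A C α ρ τ g) {y : G → F} {c : F}
    (hy : ∀ v ∈ C, ∀ w ∈ C, y (v * w) = y v + y w) (h1 : ∀ v ∈ C, y v = c * σ (y v))
    (h2 : ∀ v ∈ C, y v = g v * τ (y v)) {v : G} (hv : v ∈ C) (h0 : y v ≠ 0) {w : G} (hw : w ∈ C) :
    ∃ s, s * g v = g w ∧ σ s = s ∧ τ s * τ s = s := by
  have t : (2 : F) = 0 := two_eq
  have e1 := h1 v hv
  have e2 := h1 w hw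
  have e3 := h2 v hv
  have e4 := h2 w hw
  have e5 := h2 _ (C.mul_mem hv hw)
  rw [hy v hv w hw, m.add v hv w hw, map_add] at e5
  generalize y v = x at *
  generalize y w = z at *
  generalize g v = p at *
  generalize g w = q at *
  obtain ⟨r, rfl⟩ : ∃ r, z = r * x := ⟨z / x, by field_simp⟩
  have hτ : τ x ≠ 0 := by simpa using h0
  rw [map_mul] at e2 e4 e5
  have e6 : σ r = r := mul_right_cancel₀ h0 (by linear_combination σ r * e1 - e2)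
  have e7 : τ r * p = q := mul_right_cancel₀ hτ (by
    linear_combination e3 + e4 - e5 - q * τ x * t)
  have e8 : τ r * τ r = r := mul_right_cancel₀ h0 (by
    linear_combination τ r * τ r * e3 - e4 + τ r * τ x * e7)
  exact ⟨τ r, e7, by rw [aut_comm, e6], by rw [← map_mul, e8]⟩

namespace AbInv

theorem comm_mem (a : AbInv S K Z A e) {u x : G} (hu : u ∈ S) (hx : x ∈ A) : ⁅u, x⁆ ∈ A :=
  A.mul_mem (H1.conj_mem_of_le_normalizer a.nS hu hx) (A.inv_mem hx)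

theorem comm_mul (a : AbInv S K Z A e) {u x y : G} (hu : u ∈ S) (hx : x ∈ A) (hy : y ∈ A) :
    ⁅u, x * y⁆ = ⁅u, x⁆ * ⁅u, y⁆ := by
  rw [comm_mul_right, (a.comm x hx _ (a.comm_mem hu hy)).eq, mul_inv_cancel_right]

theorem comm_pow (a : AbInv S K Z A e) {u x : G} (hu : u ∈ S) (hx : x ∈ A) (n : ℕ) :
    ⁅u, x ^ n⁆ = ⁅u, x⁆ ^ n := by
  induction n with
  | zero => simp
  | succ n ih => rw [pow_succ, a.comm_mul hu (A.pow_mem hx n) hx, ih, pow_succ]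

theorem mul_pow (a : AbInv S K Z A e) {x y : G} (hx : x ∈ A) (hy : y ∈ A) (n : ℕ) :
    (x * y) ^ n = x ^ n * y ^ n := (a.comm x hx y hy).mul_pow n

theorem piZ (a : AbInv S K Z A e) (h : Suz S K Z φ α ρ M n) {x : G} (hx : x ∈ A) : x ^ 2 ^ e ∈ Z :=
  h.pow_mem (a.le hx) (a.exp x hx)

theorem pi_surj (a : AbInv S K Z A e) (h : Suz S K Z φ α ρ M n) (y : F) :
    ∃ x ∈ A, φ (x ^ 2 ^ e) = y := by
  by_cases hy : y = 0
  · exact ⟨1, A.one_mem, by rw [one_pow, h.one, hy]⟩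
  obtain ⟨x, hx, h0⟩ := a.exp'
  rw [Ne, ← h.φ_eq_zero (a.piZ h hx)] at h0
  obtain ⟨g, hg, e⟩ := h.tr _ _ h0 hy
  exact ⟨_, H1.conj_mem_of_le_normalizer a.nK hg hx, by rw [conj_pow, h.conj g hg _ (a.piZ h hx), e]⟩

theorem comm_pow_eq_one (a : AbInv S K Z A e) (h : Suz S K Z φ α ρ M n) {u x : G} (hu : u ∈ S)
    (hx : x ∈ A) : ⁅u, x⁆ ^ 2 ^ e = 1 := by
  rw [← a.comm_pow hu hx, commutatorElement_eq_one_iff_commute]
  exact h.cent u hu _ (a.piZ h hx)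

theorem exists_sq (a : AbInv S K Z A e) (h : Suz S K Z φ α ρ M n) {x : G} (hx : x ∈ A)
    (h1 : x ^ 2 ^ e = 1) : ∃ y ∈ A, x = y * y := by
  let pw : ℕ → A →* A := fun n => MonoidHom.mk' (fun x => x ^ n) fun x y =>
    Subtype.ext (a.mul_pow x.2 y.2 n)
  have hpw : ∀ n (x : A), (pw n x : G) = (x : G) ^ n := fun _ _ => rfl
  have h2 : (pw 2).ker = Z.subgroupOf A := by
    ext x
    rw [MonoidHom.mem_ker, mem_subgroupOf, h.memZ, Subtype.ext_iff, hpw, pow_two]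
    exact ⟨fun h => ⟨a.le x.2, h⟩, fun h => h.2⟩
  have h3 : (pw (2 ^ e)).range = Z.subgroupOf A := by
    ext x
    rw [mem_subgroupOf]
    constructor
    · rintro ⟨y, rfl⟩
      exact a.piZ h y.2
    · intro hx
      obtain ⟨y, hy, e'⟩ := a.pi_surj h (φ x)
      exact ⟨⟨y, hy⟩, Subtype.ext (h.φ_inj (a.piZ h hy) hx e')⟩
  have h4 : (pw 2).range ≤ (pw (2 ^ e)).ker := by
    rintro _ ⟨y, rfl⟩
    rw [MonoidHom.mem_ker, Subtype.ext_iff, hpw, hpw, ← pow_mul, ← pow_succ']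
    exact a.exp y y.2
  have c1 := (pw 2).ker.card_mul_index
  have c2 := (pw (2 ^ e)).ker.card_mul_index
  rw [index_ker] at c1 c2
  rw [h2] at c1
  rw [h3, ← c1, mul_comm] at c2
  have h5 := H1.eq_of_le_of_card_le h4 (Nat.eq_of_mul_eq_mul_left Nat.card_pos c2).le
  have h6 : (⟨x, hx⟩ : A) ∈ (pw 2).range := h5 ▸ Subtype.ext h1
  obtain ⟨y, hy⟩ := h6
  exact ⟨y, y.2, by rw [← pow_two]; exact (congrArg Subtype.val hy).symm⟩

theorem pi_eq (a : AbInv S K Z A e) (h : Suz S K Z φ α ρ M n) {x y : G} (hx : x ∈ A) (hy : y ∈ A)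
    (h1 : φ (x ^ 2 ^ e) = φ (y ^ 2 ^ e)) : ∃ b ∈ A, y = x * (b * b) := by
  have h2 := h.φ_inj (a.piZ h hx) (a.piZ h hy) h1
  obtain ⟨b, hb, e'⟩ := a.exists_sq h (A.mul_mem (A.inv_mem hx) hy) (by
    rw [a.mul_pow (A.inv_mem hx) hy, inv_pow, h2, inv_mul_cancel])
  exact ⟨b, hb, by rw [← e', mul_inv_cancel_left]⟩

/-- The commutator map between `C / A` and `A / A²` is monomial. -/
theorem exists_monomial (a : AbInv S K Z A e) (h : Suz S K Z φ α ρ M n) (c : Cov S K A C) {m : ℕ}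
    (hm : ∀ u ∈ C, ∀ x ∈ A, ⁅u, x⁆ ^ 2 ^ (m + 1) = 1) (hm' : ∃ u ∈ C, ∃ x ∈ A, ⁅u, x⁆ ^ 2 ^ m ≠ 1) :
    ∃ (σ : F ≃+* F) (f : G → F), (∀ u ∈ C, ∀ x ∈ A, φ (⁅u, x⁆ ^ 2 ^ m) = f u * σ (φ (x ^ 2 ^ e))) ∧
      Mon K A C α ρ σ f := by
  classical
  have DZ : ∀ u ∈ C, ∀ x ∈ A, ⁅u, x⁆ ^ 2 ^ m ∈ Z := fun u hu x hx =>
    h.pow_mem (a.le (a.comm_mem (c.le hu) hx)) (hm u hu x hx)
  have Dmul : ∀ u ∈ C, ∀ x ∈ A, ∀ y ∈ A,
      φ (⁅u, x * y⁆ ^ 2 ^ m) = φ (⁅u, x⁆ ^ 2 ^ m) + φ (⁅u, y⁆ ^ 2 ^ m) := fun u hu x hx y hy => by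
    rw [a.comm_mul (c.le hu) hx hy, a.mul_pow (a.comm_mem (c.le hu) hx) (a.comm_mem (c.le hu) hy),
      h.add _ (DZ u hu x hx) _ (DZ u hu y hy)]
  have Deq : ∀ u ∈ C, ∀ x ∈ A, ∀ y ∈ A, φ (x ^ 2 ^ e) = φ (y ^ 2 ^ e) →
      φ (⁅u, x⁆ ^ 2 ^ m) = φ (⁅u, y⁆ ^ 2 ^ m) := fun u hu x hx y hy e' => by
    obtain ⟨b, hb, rfl⟩ := a.pi_eq h hx hy e'
    rw [Dmul u hu x hx _ (A.mul_mem hb hb), Dmul u hu b hb b hb, CharTwo.add_self_eq_zero, add_zero]
  choose s hsA hs using a.pi_surj h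
  let η : G → F →+ F := fun u => if hu : u ∈ C then
    AddMonoidHom.mk' (fun y => φ (⁅u, s y⁆ ^ 2 ^ m)) (fun y y' => by
      rw [← Dmul u hu _ (hsA y) _ (hsA y')]
      refine Deq u hu _ (hsA _) _ (A.mul_mem (hsA y) (hsA y')) ?_
      rw [a.mul_pow (hsA y) (hsA y'), h.add _ (a.piZ h (hsA y)) _ (a.piZ h (hsA y')), hs, hs,
        hs]) else 0
  have hη : ∀ u ∈ C, ∀ y, η u y = φ (⁅u, s y⁆ ^ 2 ^ m) := fun u hu y => by
    simp only [η, dif_pos hu]; rfl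
  have hη' : ∀ u ∈ C, ∀ x ∈ A, η u (φ (x ^ 2 ^ e)) = φ (⁅u, x⁆ ^ 2 ^ m) := fun u hu x hx => by
    rw [hη u hu]
    exact Deq u hu _ (hsA _) x hx (hs _)
  obtain ⟨σ, f, h1, h2⟩ := h.monomial a.le a.nK c η
    (fun u hu v hv => by
      ext y
      have hv' := a.comm_mem (c.le hv) (hsA y)
      rw [AddMonoidHom.add_apply, hη u hu, hη v hv, hη _ (C.mul_mem hu hv), comm_mul_left,
        a.mul_pow (H1.conj_mem_of_le_normalizer a.nS (c.le hu) hv') (a.comm_mem (c.le hu) (hsA y)),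
        conj_pow, h.conjZ (c.le hu) (DZ v hv _ (hsA y)),
        h.add _ (DZ v hv _ (hsA y)) _ (DZ u hu _ (hsA y)), add_comm])
    (fun u hu => by
      ext y
      rw [hη u (c.lt.le hu), commutatorElement_eq_one_iff_commute.mpr (a.comm u hu _ (hsA y)),
        one_pow, h.one]; rfl)
    (fun g hg u hu y => by
      have hu' := H1.conj_mem_of_le_normalizer c.nK hg hu
      have hy' := H1.conj_mem_of_le_normalizer a.nK hg (hsA y)
      have := hη' _ hu' _ hy'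
      rw [conj_pow, h.conj g hg _ (a.piZ h (hsA y)), hs, P2.conj_comm, conj_pow,
        h.conj g hg _ (DZ u hu _ (hsA y))] at this
      rw [this, hη u hu])
    (by
      obtain ⟨u, hu, x, hx, h0⟩ := hm'
      refine ⟨u, hu, fun e' => h0 ?_⟩
      rw [← h.φ_eq_zero (DZ u hu x hx), ← hη' u hu x hx, e']; rfl)
  exact ⟨σ, f, fun u hu x hx => by rw [← hη' u hu x hx, h1 u hu], h2⟩

theorem sq_mem (a : AbInv S K Z A e) (h : Suz S K Z φ α ρ M n) (c : Cov S K A C) {u : G} (hu : u ∈ C) :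
    u * u ∈ A := by
  let W : Subgroup G :=
    { carrier := {u | u ∈ C ∧ u * u ∈ A}
      one_mem' := ⟨C.one_mem, by simp⟩
      mul_mem' := fun {x y} hx hy => ⟨C.mul_mem hx.1 hy.1, by
        have : x * y * (x * y) = x * x * ⁅x⁻¹, y⁆ * (y * y) := by
          simp only [commutatorElement_def]; group
        rw [this]
        exact A.mul_mem (A.mul_mem hx.2 (c.cent _ (c.le (C.inv_mem hx.1)) y hy.1)) hy.2⟩
      inv_mem' := fun {x} hx => ⟨C.inv_mem hx.1, by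
        rw [← mul_inv_rev]; exact A.inv_mem hx.2⟩ }
  have hW : K ≤ 𝐍(W) := fun g hg => mem_norm_of_conj_le fun x hx => by
    obtain ⟨y, hy, rfl⟩ := mem_conj'.mp hx
    refine ⟨H1.conj_mem_of_le_normalizer c.nK hg hy.1, ?_⟩
    rw [show g * y * g⁻¹ * (g * y * g⁻¹) = g * (y * y) * g⁻¹ by group]
    exact H1.conj_mem_of_le_normalizer a.nK hg hy.2
  rcases c.irr W (fun x hx => ⟨c.lt.le hx, A.mul_mem hx hx⟩) (fun x hx => hx.1) hW with h1 | h1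
  · exfalso
    obtain ⟨x, hx, hxA⟩ := SetLike.exists_of_lt c.lt
    obtain ⟨n, hn⟩ := h.pgrp ⟨x, c.le hx⟩
    have hn' : x ^ 2 ^ n ∈ A := by
      have : x ^ 2 ^ n = 1 := congrArg Subtype.val hn
      rw [this]; exact A.one_mem
    clear hn
    induction n with
    | zero => exact hxA (by simpa using hn')
    | succ n ih =>
      refine ih (h1 ▸ ⟨C.pow_mem hx _, ?_⟩)
      rwa [← pow_add, ← two_mul, ← pow_succ']
  · have : u ∈ W := h1 ▸ hu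
    exact this.2

theorem eq_zero_of_cent (a : AbInv S K Z A e) (h : Suz S K Z φ α ρ M n) (c : Cov S K A C)
    (hc : ∀ u ∈ C, ∀ x ∈ A, Commute u x) (hna : ∃ u ∈ C, ∃ v ∈ C, ¬ Commute u v) : e = 0 := by
  by_contra he
  have cZ : ∀ u ∈ C, ∀ v ∈ C, ⁅u, v⁆ ∈ Z := fun u hu v hv => by
    have h1 := c.cent u (c.le hu) v hv
    refine (h.memZ _).mpr ⟨a.le h1, ?_⟩
    have h2 := comm_mul_left u u v
    rw [(hc u hu _ h1).eq, mul_inv_cancel_right] at h2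
    rw [← h2, commutatorElement_eq_one_iff_commute]
    exact (hc v hv _ (a.sq_mem h c hu)).symm
  let q : G → F := fun u => φ ((u * u) ^ 2 ^ e)
  have qadd : ∀ u ∈ C, ∀ v ∈ C, q (u * v) = q u + q v := fun u hu v hv => by
    have h1 : u * v * (u * v) = u * u * (⁅u⁻¹, v⁆ * (v * v)) := by
      simp only [commutatorElement_def]; group
    have h2 := cZ _ (C.inv_mem hu) v hv
    have h3 := a.sq_mem h c hu
    have h4 := a.sq_mem h c hv
    simp only [q]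
    rw [h1, a.mul_pow h3 (A.mul_mem (a.ge h2) h4), a.mul_pow (a.ge h2) h4, h.pow_eq_one h2 he,
      one_mul, h.add _ (a.piZ h h3) _ (a.piZ h h4)]
  have qker : ∀ u ∈ C, q u = 0 → u ∈ A := fun u hu h0 => by
    rw [h.φ_eq_zero (a.piZ h (a.sq_mem h c hu))] at h0
    obtain ⟨b, hb, e'⟩ := a.exists_sq h (a.sq_mem h c hu) h0
    have : u * b⁻¹ ∈ Z := (h.memZ _).mpr ⟨S.mul_mem (c.le hu) (S.inv_mem (a.le hb)), by
      rw [mul_assoc, ← mul_assoc b⁻¹, ← (hc u hu _ (A.inv_mem hb)).eq, ← mul_assoc, ← mul_assoc, e']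
      group⟩
    simpa using A.mul_mem (a.ge this) hb
  have qA : ∀ x ∈ A, q x = 0 := fun x hx => by
    simp only [q]
    rw [← pow_two, ← pow_mul, ← pow_succ', a.exp x hx, h.one]
  have qconj : ∀ g ∈ K, ∀ u ∈ C, q (g * u * g⁻¹) = α g * ρ g (q u) := fun g hg u hu => by
    simp only [q]
    rw [show g * u * g⁻¹ * (g * u * g⁻¹) = g * (u * u) * g⁻¹ by group, conj_pow,
      h.conj g hg _ (a.piZ h (a.sq_mem h c hu))]
  have qsurj : ∀ y, ∃ u ∈ C, q u = y := fun y => by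
    by_cases hy : y = 0
    · exact ⟨1, C.one_mem, by rw [qA 1 A.one_mem, hy]⟩
    obtain ⟨u, hu, huA⟩ := SetLike.exists_of_lt c.lt
    have h0 : q u ≠ 0 := fun h0 => huA (qker u hu h0)
    obtain ⟨g, hg, e⟩ := h.tr _ _ h0 hy
    exact ⟨_, H1.conj_mem_of_le_normalizer c.nK hg hu, by rw [qconj g hg u hu, e]⟩
  have qeq : ∀ u ∈ C, ∀ v ∈ C, q u = q v → ∃ x ∈ A, v = u * x := fun u hu v hv e' => by
    refine ⟨u⁻¹ * v, qker _ (C.mul_mem (C.inv_mem hu) hv) ?_, by group⟩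
    have h1 := qadd u hu _ (C.mul_mem (C.inv_mem hu) hv)
    rw [mul_inv_cancel_left, e'] at h1
    linear_combination -h1
  have cl : ∀ u ∈ C, ∀ v ∈ C, ∀ w ∈ C, φ ⁅u * v, w⁆ = φ ⁅u, w⁆ + φ ⁅v, w⁆ :=
    fun u hu v hv w hw => by
      rw [comm_mul_left, h.conjZ (c.le hu) (cZ v hv w hw), h.add _ (cZ v hv w hw) _ (cZ u hu w hw),
        add_comm]
  have cr : ∀ u ∈ C, ∀ v ∈ C, ∀ w ∈ C, φ ⁅u, v * w⁆ = φ ⁅u, v⁆ + φ ⁅u, w⁆ :=
    fun u hu v hv w hw => by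
      rw [comm_mul_right, h.conjZ (c.le hv) (cZ u hu w hw),
        h.add _ (cZ u hu v hv) _ (cZ u hu w hw)]
  have ceq : ∀ u ∈ C, ∀ u' ∈ C, ∀ v ∈ C, ∀ v' ∈ C, q u = q u' → q v = q v' →
      φ ⁅u, v⁆ = φ ⁅u', v'⁆ := fun u hu u' hu' v hv v' hv' e1 e2 => by
    obtain ⟨x, hx, rfl⟩ := qeq u hu u' hu' e1
    obtain ⟨y, hy, rfl⟩ := qeq v hv v' hv' e2
    rw [cl u hu x (c.lt.le hx) _ hv', cr u hu v hv y (c.lt.le hy),
      commutatorElement_eq_one_iff_commute.mpr (hc u hu y hy),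
      commutatorElement_eq_one_iff_commute.mpr (hc _ hv' x hx).symm, h.one, add_zero, add_zero]
  choose s hsC hs using qsurj
  have key := alt_eq_zero h.card h.idx (fun x y => φ ⁅s x, s y⁆)
    (fun x y z => by
      rw [← cl _ (hsC x) _ (hsC y) _ (hsC z)]
      exact ceq _ (hsC _) _ (C.mul_mem (hsC x) (hsC y)) _ (hsC z) _ (hsC z)
        (by rw [qadd _ (hsC x) _ (hsC y), hs, hs, hs]) rfl)
    (fun x y z => by
      rw [← cr _ (hsC x) _ (hsC y) _ (hsC z)]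
      exact ceq _ (hsC _) _ (hsC x) _ (hsC _) _ (C.mul_mem (hsC y) (hsC z)) rfl
        (by rw [qadd _ (hsC y) _ (hsC z), hs, hs, hs]))
    (fun x => by rw [commutatorElement_self, h.one])
    (fun m hm x y => by
      obtain ⟨g, hg, e1, e2⟩ := h.mul m hm
      have h1 := h.conj g hg _ (cZ _ (hsC x) _ (hsC y))
      rw [← P2.conj_comm, e1, e2] at h1
      rw [← h1]
      exact ceq _ (hsC _) _ (H1.conj_mem_of_le_normalizer c.nK hg (hsC x)) _ (hsC _) _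
        (H1.conj_mem_of_le_normalizer c.nK hg (hsC y))
        (by rw [qconj g hg _ (hsC x), hs, hs, e1, e2])
        (by rw [qconj g hg _ (hsC y), hs, hs, e1, e2]))
  obtain ⟨u, hu, v, hv, huv⟩ := hna
  apply huv
  rw [← commutatorElement_eq_one_iff_commute, ← h.φ_eq_zero (cZ u hu v hv), ← key (q u) (q v)]
  exact ceq u hu _ (hsC _) v hv _ (hsC _) (hs _).symm (hs _).symm

theorem of_not_cent (a : AbInv S K Z A e) (h : Suz S K Z φ α ρ M n) (c : Cov S K A C)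
    (hc : ∃ u ∈ C, ∃ x ∈ A, ¬ Commute u x) : e = 1 ∧ (∀ u ∈ C, u * u ∈ Z) ∧
    ∃ (σ : F ≃+* F) (f : G → F), (∀ u ∈ C, ∀ x ∈ A, φ ⁅u, x⁆ = f u * σ (φ (x * x))) ∧
      Mon K A C α ρ σ f := by
  classical
  have hex : ∃ j, ∀ u ∈ C, ∀ x ∈ A, ⁅u, x⁆ ^ 2 ^ j = 1 :=
    ⟨e, fun u hu x hx => a.comm_pow_eq_one h (c.le hu) hx⟩
  have hle : Nat.find hex ≤ e := Nat.find_min' hex fun u hu x hx =>
    a.comm_pow_eq_one h (c.le hu) hx
  have hne : Nat.find hex ≠ 0 := fun h0 => by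
    have := Nat.find_spec hex
    obtain ⟨u, hu, x, hx, hux⟩ := hc
    rw [h0] at this
    exact hux (commutatorElement_eq_one_iff_commute.mp (by simpa using this u hu x hx))
  obtain ⟨m, hm⟩ := Nat.exists_eq_succ_of_ne_zero hne
  have hm1 := Nat.find_spec hex
  have hm2 := Nat.find_min hex (m := m) (by omega)
  rw [hm] at hm1 hle
  push Not at hm2
  obtain ⟨σ, f, h1, h2⟩ := a.exists_monomial h c hm1 hm2
  have h3 := fun u hu => (h2.ker u hu).1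
  have hsq : ∀ u ∈ C, (u * u) ^ 2 ^ e = 1 := fun u hu => by
    by_cases huA : u ∈ A
    · rw [← pow_two, ← pow_mul, ← pow_succ', a.exp u huA]
    have := h1 u hu _ (a.sq_mem h c hu)
    rw [commutatorElement_eq_one_iff_commute.mpr ((Commute.refl u).mul_right (Commute.refl u)),
      one_pow, h.one] at this
    rw [← h.φ_eq_zero (a.piZ h (a.sq_mem h c hu)), ← map_eq_zero_iff σ σ.injective]
    exact (mul_eq_zero.mp this.symm).resolve_left fun h0 => huA (h3 u hu h0)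
  obtain ⟨u, hu, huA⟩ := SetLike.exists_of_lt c.lt
  have hme : m + 1 = e := by
    by_contra hlt
    obtain ⟨n, rfl⟩ : ∃ n, e = m + 1 + n + 1 := ⟨e - (m + 2), by omega⟩
    have h4th : ∀ x ∈ A, ∃ y ∈ A, ⁅u, x⁆⁻¹ = y ^ 4 := fun x hx => by
      have hd := A.inv_mem (a.comm_mem (c.le hu) hx)
      have e1 : ⁅u, x⁆⁻¹ ^ 2 ^ (m + 1 + n) = 1 := by
        rw [inv_pow, pow_add, pow_mul, hm1 u hu x hx, one_pow, inv_one]
      obtain ⟨y, hy, e2⟩ := a.exists_sq h hd (by rw [pow_succ, pow_mul, e1, one_pow])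
      obtain ⟨w, hw, e3⟩ := a.exists_sq h hy (by
        rw [pow_succ', pow_mul, pow_two, ← e2, e1])
      exact ⟨w, hw, by rw [e2, e3]; simp only [pow_succ, pow_zero, one_mul, mul_assoc]⟩
    have hit : ∀ i : ℕ, ∀ b ∈ A, ∃ x ∈ A, ∃ y ∈ A, b * b = x * x * ⁅u, x⁆ * y ^ 2 ^ (i + 1) := by
      intro i
      induction i with
      | zero => exact fun b hb => ⟨1, A.one_mem, b, hb, by simp [pow_two]⟩
      | succ i ih =>
        intro b hb
        obtain ⟨x, hx, y, hy, e1⟩ := ih b hb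
        obtain ⟨w, hw, e2⟩ := h4th y hy
        have hy' := A.pow_mem hy (2 ^ i)
        refine ⟨x * y ^ 2 ^ i, A.mul_mem hx hy', w, hw, ?_⟩
        have e3 : w ^ 2 ^ (i + 1 + 1) = (⁅u, y ^ 2 ^ i⁆)⁻¹ := by
          rw [a.comm_pow (c.le hu) hy, ← inv_pow, e2, ← pow_mul]
          congr 1; ring
        rw [e1, e3, a.comm_mul (c.le hu) hx hy', ← mul_assoc, mul_inv_cancel_right, pow_succ,
          pow_mul, pow_two]
        have c1 := (a.comm x hx _ hy').eq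
        have c2 := (a.comm _ (a.comm_mem (c.le hu) hx) _ (A.mul_mem hy' hy')).eq
        generalize y ^ 2 ^ i = y' at *
        rw [mul_assoc (x * x), c2, show x * y' * (x * y') = x * (y' * x) * y' by group, ← c1]
        group
    obtain ⟨b, hb, e1⟩ := a.exists_sq h (A.inv_mem (a.sq_mem h c hu))
      (by rw [inv_pow, hsq u hu, inv_one])
    obtain ⟨x, hx, y, hy, e2⟩ := hit (m + 1 + n + 1) b hb
    rw [a.exp y hy, mul_one, ← e1] at e2
    have : x * u ∈ Z := (h.memZ _).mpr ⟨S.mul_mem (a.le hx) (c.le hu), by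
      have c1 := (a.comm x hx _ (a.comm_mem (c.le hu) hx)).eq
      have : x * u * (x * u) = x * (⁅u, x⁆ * x) * (u * u) := by
        simp only [commutatorElement_def]; group
      rw [this, ← c1, ← mul_assoc x x, ← e2, inv_mul_cancel]⟩
    exact huA (by simpa using A.mul_mem (A.inv_mem hx) (a.ge this))
  subst hme
  have hm0 : m = 0 := by
    by_contra hm0
    obtain ⟨n, rfl⟩ := Nat.exists_eq_succ_of_ne_zero hm0
    have f0 : f u ≠ 0 := fun h0 => huA (h3 u hu h0)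
    have key : ∀ y, f u * σ y = y := fun y => by
      obtain ⟨x, hx, rfl⟩ := a.pi_surj h y
      have hd := a.comm_mem (c.le hu) hx
      obtain ⟨b, hb, e1⟩ := a.exists_sq h hd (a.comm_pow_eq_one h (c.le hu) hx)
      have e2 : ⁅u, ⁅u, x⁆⁆ * (⁅u, x⁆ * ⁅u, x⁆) = 1 := by
        have := comm_mul_left u u x
        rw [commutatorElement_eq_one_iff_commute.mpr (a.comm _ (a.sq_mem h c hu) x hx)] at this
        rw [this]
        simp only [commutatorElement_def]; group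
      have e3 : b ^ 2 ^ (n + 1 + 1) = ⁅u, x⁆ ^ 2 ^ (n + 1) := by
        rw [e1, ← pow_two, ← pow_mul, ← pow_succ']
      have e4 : ⁅u, b⁆ ^ 2 ^ (n + 1) = (⁅u, x⁆ ^ 2 ^ (n + 1))⁻¹ := by
        have : ⁅u, ⁅u, x⁆⁆ = ⁅u, b⁆ * ⁅u, b⁆ := by rw [e1, a.comm_mul (c.le hu) hb hb]
        rw [this] at e2
        rw [pow_succ', pow_mul, pow_mul, pow_two, pow_two, eq_inv_of_mul_eq_one_left e2, inv_pow]
      have e5 := h1 u hu b hb
      have hZ : ⁅u, x⁆ ^ 2 ^ (n + 1) ∈ Z := h.pow_mem (a.le hd) (hm1 u hu x hx)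
      simp only [Nat.succ_eq_add_one] at e5 h1 ⊢
      rw [e3, e4, h.inv hZ, h1 u hu x hx] at e5
      exact (σ.injective (mul_left_cancel₀ f0 e5)).symm
    have f1 : f u = 1 := by simpa using key 1
    obtain ⟨x, hx⟩ := h2.ne
    exact hx (by simpa [f1] using key x)
  subst hm0
  refine ⟨rfl, fun v hv => (h.memZ _).mpr ⟨a.le (a.sq_mem h c hv), ?_⟩, σ, f, ?_, h2⟩
  · simpa [pow_two] using hsq v hv
  · simpa [pow_two] using h1

theorem comm_half (a : AbInv S K Z A 1) (h : Suz S K Z φ α ρ M n) {C' : Subgroup G}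
    (c : Cov S K A C) (c' : Cov S K A C') (s1 : ∀ u ∈ C, u * u ∈ Z) (s2 : ∀ u ∈ C', u * u ∈ Z)
    {σ τ : F ≃+* F} {f g : G → F} (h1 : ∀ u ∈ C, ∀ x ∈ A, φ ⁅u, x⁆ = f u * σ (φ (x * x)))
    (g1 : ∀ u ∈ C', ∀ x ∈ A, φ ⁅u, x⁆ = g u * τ (φ (x * x))) (g2 : Mon K A C' α ρ τ g) {u v : G}
    (hu : u ∈ C) (hv : v ∈ C') (n1 : φ (⁅u, v⁆ * ⁅u, v⁆) ≠ 0) : g v ≠ 0 ∧
      (∀ m ∈ M, σ (m / τ m) = m / τ m) ∧ ∀ x : F, x ≠ 0 →
        ∃ (ψ : F ≃+* F) (s : F), s * g v * τ x = x * ψ (ψ (g v)) ∧ τ s * τ s = s := by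
  have hsZ : ∀ x ∈ A, x * x ∈ Z := fun x hx => by simpa [pow_two] using a.piZ h hx
  have hcZ : ∀ w ∈ S, ∀ x ∈ A, ⁅w, x⁆ ∈ Z := fun w hw x hx =>
    (h.memZ _).mpr ⟨a.le (a.comm_mem hw hx), by simpa [pow_two] using a.comm_pow_eq_one h hw hx⟩
  have hd : ∀ v ∈ C', ⁅u, v⁆ ∈ A := fun v hv => c'.cent u (c.le hu) v hv
  have b1 : ∀ v ∈ C', φ (⁅u, v⁆ * ⁅u, v⁆) = f u * σ (φ (⁅u, v⁆ * ⁅u, v⁆)) := fun v hv => by
    rw [← h1 u hu _ (hd v hv)]
    have e2 : ⁅u, ⁅u, v⁆⁆ * (⁅u, v⁆ * ⁅u, v⁆) = 1 := by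
      have := comm_mul_left u u v
      rw [commutatorElement_eq_one_iff_commute.mpr (h.cent v (c'.le hv) _ (s1 u hu)).symm] at this
      rw [this]
      simp only [commutatorElement_def]; group
    rw [eq_inv_of_mul_eq_one_left e2, h.inv (hsZ _ (hd v hv))]
  have b2 : ∀ v ∈ C', φ (⁅u, v⁆ * ⁅u, v⁆) = g v * τ (φ (⁅u, v⁆ * ⁅u, v⁆)) := fun v hv => by
    rw [← g1 v hv _ (hd v hv)]
    have e2 : ⁅u, v⁆ * ⁅v, ⁅u, v⁆⁆ * ⁅u, v⁆ = 1 := by
      have := comm_mul_right u v v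
      rw [commutatorElement_eq_one_iff_commute.mpr (h.cent u (c.le hu) _ (s2 v hv))] at this
      rw [this]
      simp only [commutatorElement_def]; group
    rw [(h.cent _ (a.le (hd v hv)) _ (hcZ v (c'.le hv) _ (hd v hv))).eq, mul_assoc] at e2
    rw [eq_inv_of_mul_eq_one_left e2, h.inv (hsZ _ (hd v hv))]
  have badd : ∀ v ∈ C', ∀ w ∈ C', φ (⁅u, v * w⁆ * ⁅u, v * w⁆) =
      φ (⁅u, v⁆ * ⁅u, v⁆) + φ (⁅u, w⁆ * ⁅u, w⁆) := fun v hv w hw => by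
    rw [← h.add _ (hsZ _ (hd v hv)) _ (hsZ _ (hd w hw)), comm_mul_right, ← pow_two,
      a.mul_pow (hd v hv) (H1.conj_mem_of_le_normalizer a.nS (c'.le hv) (hd w hw)), conj_pow,
      pow_two, pow_two, h.conjZ (c'.le hv) (hsZ _ (hd w hw))]
  have g0 : g v ≠ 0 := fun e => n1 (by rw [b2 v hv, e, zero_mul])
  have key : ∀ k ∈ K, ∃ s, s * g v * τ (α k) = α k * ρ k (g v) ∧ σ s = s ∧ τ s * τ s = s :=
    fun k hk => by
      obtain ⟨s, e1, e2⟩ := g2.ratio (y := fun v => φ (⁅u, v⁆ * ⁅u, v⁆)) badd b1 b2 hv n1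
        (H1.conj_mem_of_le_normalizer c'.nK hk hv)
      exact ⟨s, by rw [e1, g2.conj k hk v hv], e2⟩
  refine ⟨g0, fun m hm => ?_, fun x hx => ?_⟩
  · obtain ⟨k, hk, e1, e2⟩ := h.mul m hm
    obtain ⟨s, e3, e4, -⟩ := key k hk
    rw [e1, e2, mul_right_comm] at e3
    rwa [← (eq_div_iff (by simp)).2 (mul_right_cancel₀ g0 e3)]
  · obtain ⟨k, hk, e1⟩ := h.tr 1 x one_ne_zero hx
    obtain ⟨s, e3, -, e4⟩ := key k hk
    obtain ⟨ψ, hψ⟩ := h.sqr k hk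
    rw [map_one, mul_one] at e1
    exact ⟨ψ, s, by rw [← e1, e3, hψ], e4⟩

theorem comm_mem_Z (a : AbInv S K Z A e) (h : Suz S K Z φ α ρ M n) {C' : Subgroup G}
    (c : Cov S K A C) (c' : Cov S K A C') (hc : ∃ u ∈ C, ∃ x ∈ A, ¬ Commute u x)
    (hc' : ∃ u ∈ C', ∃ x ∈ A, ¬ Commute u x) {u v : G} (hu : u ∈ C) (hv : v ∈ C') : ⁅u, v⁆ ∈ Z := by
  obtain ⟨rfl, s1, σ, f, h1, h2⟩ := a.of_not_cent h c hc
  obtain ⟨-, s2, τ, g, g1, g2⟩ := a.of_not_cent h c' hc'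
  have hd := c'.cent u (c.le hu) v hv
  have hZ : ⁅u, v⁆ * ⁅u, v⁆ ∈ Z := by simpa [pow_two] using a.piZ h hd
  refine (h.memZ _).mpr ⟨a.le hd, h.ker _ hZ (by_contra fun n1 => ?_)⟩
  obtain ⟨d0, -, d2⟩ := a.comm_half h c c' s1 s2 h1 g1 g2 hu hv n1
  obtain ⟨c0, c1, c2⟩ := a.comm_half h c' c s2 s1 g1 h1 h2 hv hu
    (by rwa [← commutatorElement_inv, ← mul_inv_rev, h.inv hZ])
  exact cross h.card h.idx h2.ne g2.ne c0 d0 c1 c2 d2

end AbInv

/-- A Suzuki 2-group is abelian or has exponent 4 and class 2. -/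
theorem Suz.sq_mem (h : Suz S K Z φ α ρ M n) (hna : ¬ IsMulCommutative S) : ∀ x ∈ S, x * x ∈ Z := by
  classical
  have hS := isNilpotent_of_isPGroup Nat.prime_two h.pgrp
  have hZn : S ≤ 𝐍(Z) := fun x hx => cent_le_norm Z (mem_cent.mpr fun z hz => (h.cent x hx z hz).eq.symm)
  obtain ⟨A, ⟨hZA, hAS, hA, nS, nK⟩, hmax⟩ := (Set.toFinite
    {A : Subgroup G | Z ≤ A ∧ A ≤ S ∧ (∀ a ∈ A, ∀ b ∈ A, Commute a b) ∧ S ≤ 𝐍(A) ∧
      K ≤ 𝐍(A)}).exists_maximal ⟨Z, le_rfl, h.Z_le, fun a ha b hb => h.cent a (h.Z_le ha) b hb, hZn, h.normZ⟩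
  have hnt : Nontrivial A := by
    obtain ⟨z, hz, h1⟩ := h.surj 1
    refine ⟨⟨z, hZA hz⟩, 1, fun e => ?_⟩
    rw [show z = 1 from congrArg Subtype.val e, h.one] at h1
    exact zero_ne_one h1
  have : Fact (Nat.Prime 2) := ⟨Nat.prime_two⟩
  obtain ⟨e, he1, a0, he2⟩ := H1.exists_exponent_eq (G := A) (p := 2) (h.pgrp.to_le hAS)
  have a : AbInv S K Z A e := ⟨hZA, hAS, hA, nS, nK,
    fun x hx => congrArg Subtype.val (he1 ⟨x, hx⟩), a0, a0.2, fun e' => he2 (Subtype.ext e')⟩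
  have hnab : ∀ C, Cov S K A C → ∃ u ∈ C, ∃ v ∈ C, ¬ Commute u v := fun C c => by
    by_contra hn
    push Not at hn
    exact not_le_of_gt c.lt (hmax ⟨hZA.trans c.lt.le, c.le, hn,
      comm_le_right_iff.mp (commutator_le.mpr fun x hx u hu => c.lt.le (c.cent x hx u hu)), c.nK⟩
      c.lt.le)
  have hlt : A < S := lt_of_le_of_ne hAS fun e' => hna
    ⟨⟨fun x y => Subtype.ext (hA x (e' ▸ x.2) y (e' ▸ y.2)).eq⟩⟩
  let P : Subgroup G := closure {y | ∃ x ∈ S, y = x * x}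
  have hPS : P ≤ S := (closure_le _).mpr (by rintro _ ⟨x, hx, rfl⟩; exact S.mul_mem hx hx)
  have nP : 𝐍(S) ≤ 𝐍(P) := fun g hg => mem_norm_of_conj_le (by
    rw [conj_le_iff]
    refine (closure_le _).mpr ?_
    rintro _ ⟨x, hx, rfl⟩
    refine mem_conj.mpr (subset_closure ⟨g * x * g⁻¹, (mem_normalizer_iff.mp hg x).mp hx, ?_⟩)
    group)
  have hPc : ∀ u : G, (∀ x ∈ S, ⁅x, u⁆ ∈ Z) → P ≤ 𝐂[u] := fun u hu => (closure_le _).mpr (by
    rintro _ ⟨x, hx, rfl⟩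
    refine mem_cent1_iff_commute.mpr (Commute.symm ?_)
    rw [← commutatorElement_eq_one_iff_commute, comm_mul_left, h.conjZ hx (hu x hx), h.sq (hu x hx)])
  have hcov : ¬ P ≤ A → ∃ C, C ≤ P ⊔ A ∧ Cov S K A C := fun hP =>
    exists_cov hS h.norm nS nK (lt_of_le_of_ne le_sup_right fun e' => hP (e' ▸ le_sup_left))
      (sup_le hPS hAS) (H1.le_normalizer_sup (le_normalizer.trans nP) nS)
      (H1.le_normalizer_sup (h.norm.trans nP) nK)
  have hsqP : ∀ x ∈ S, x * x ∈ P := fun x hx => subset_closure ⟨x, hx, rfl⟩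
  by_cases he : e = 0
  · subst he
    have hAZ : A ≤ Z := fun x hx => by simpa using a.piZ h hx
    by_cases hP : P ≤ A
    · exact fun x hx => hAZ (hP (hsqP x hx))
    obtain ⟨C, hC, c⟩ := hcov hP
    obtain ⟨u, hu, v, hv, huv⟩ := hnab C c
    refine absurd (mem_cent1_iff_commute.mp ((sup_le (hPc u fun x hx => hAZ (c.cent x hx u hu))
      fun x hx => mem_cent1_iff_commute.mpr (h.cent u (c.le hu) x (hAZ hx))) (hC hv))) huv
  have hnc : ∀ C, Cov S K A C → ∃ u ∈ C, ∃ x ∈ A, ¬ Commute u x := fun C c => by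
    by_contra hn
    push Not at hn
    exact he (a.eq_zero_of_cent h c hn (hnab C c))
  obtain ⟨C₀, -, c₀⟩ := exists_cov hS h.norm nS nK hlt le_rfl le_normalizer h.norm
  obtain rfl : e = 1 := (a.of_not_cent h c₀ (hnc C₀ c₀)).1
  have hcZ : ∀ w ∈ S, ∀ x ∈ A, ⁅w, x⁆ ∈ Z := fun w hw x hx =>
    (h.memZ _).mpr ⟨a.le (a.comm_mem hw hx), by simpa [pow_two] using a.comm_pow_eq_one h hw hx⟩
  have hP : P ≤ A := by
    by_contra hP
    obtain ⟨C, hC, c⟩ := hcov hP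
    obtain ⟨u, hu, x, hx, hux⟩ := hnc C c
    exact hux (mem_cent1_iff_commute.mp ((sup_le (hPc x fun w hw => hcZ w hw x hx)
      fun y hy => mem_cent1_iff_commute.mpr (hA x hx y hy)) (hC hu))).symm
  have hSS : ⁅S, S⁆ ≤ A := commutator_le.mpr fun x hx y hy => by
    have : ⁅x, y⁆ = x * y * (x * y) * (y⁻¹ * x⁻¹ * y * (y⁻¹ * x⁻¹ * y)) * (y⁻¹ * y⁻¹) := by
      simp only [commutatorElement_def]; group
    rw [this]
    exact hP (P.mul_mem (P.mul_mem (hsqP _ (S.mul_mem hx hy)) (hsqP _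
      (S.mul_mem (S.mul_mem (S.inv_mem hy) (S.inv_mem hx)) hy))) (hsqP _ (S.inv_mem hy)))
  have gen : ∀ W : Subgroup G, A ≤ W → W ≤ S → K ≤ 𝐍(W) → (∀ C, Cov S K A C → C ≤ W) → S ≤ W := by
    intro W h1 h2 h3 h4
    obtain ⟨V, v1, v2, v3, v4, v5⟩ := H1.exists_invariant_complement_section Nat.prime_two h1 h2 hSS
      (fun x hx => by rw [pow_two]; exact hP (hsqP x hx)) h.norm h3 nK h.odd
    by_cases hV : V = A
    · rw [← v5, hV]; exact sup_le le_rfl h1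
    obtain ⟨C, hC, c⟩ := exists_cov hS h.norm nS nK (lt_of_le_of_ne v1 (Ne.symm hV)) v2
      (le_norm_of_der_le (hSS.trans v1) v2) v3
    exact absurd (v4 ▸ le_inf (h4 C c) hC) (not_le_of_gt c.lt)
  have hCc : ∀ C, Cov S K A C → ∀ x ∈ S, ∀ u ∈ C, ⁅u, x⁆ ∈ Z := fun C c x hx u hu => by
    have := gen (S ⊓ centMod C Z)
      (le_inf hAS fun y hy => mem_centMod.mpr ⟨hZn (hAS hy), fun w hw => hcZ w (c.le hw) y hy⟩)
      inf_le_left (H1.le_normalizer_inf h.norm (norm_le_norm_centMod c.nK h.normZ))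
      fun C' c' v hv => ⟨c'.le hv, mem_centMod.mpr ⟨hZn (c'.le hv), fun w hw =>
        a.comm_mem_Z h c c' (hnc C c) (hnc C' c') hw hv⟩⟩
    exact (mem_centMod.mp (this hx).2).2 u hu
  have hall : ∀ x ∈ S, ∀ y ∈ S, ⁅x, y⁆ ∈ Z := fun x hx y hy => by
    have := gen (S ⊓ centMod S Z)
      (le_inf hAS fun y hy => mem_centMod.mpr ⟨hZn (hAS hy), fun w hw => hcZ w hw y hy⟩)
      inf_le_left (H1.le_normalizer_inf h.norm (norm_le_norm_centMod h.norm h.normZ))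
      fun C c v hv => ⟨c.le hv, mem_centMod.mpr ⟨hZn (c.le hv), fun w hw => by
        rw [← commutatorElement_inv]; exact Z.inv_mem (hCc C c w hw v hv)⟩⟩
    exact (mem_centMod.mp (this hy).2).2 x hx
  let W : Subgroup G :=
    { carrier := {x | x ∈ S ∧ x * x ∈ Z}
      one_mem' := ⟨S.one_mem, by simp⟩
      mul_mem' := fun {x y} hx hy => ⟨S.mul_mem hx.1 hy.1, by
        have : x * y * (x * y) = x * x * ⁅x⁻¹, y⁆ * (y * y) := by
          simp only [commutatorElement_def]; group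
        rw [this]
        exact Z.mul_mem (Z.mul_mem hx.2 (hall _ (S.inv_mem hx.1) y hy.1)) hy.2⟩
      inv_mem' := fun {x} hx => ⟨S.inv_mem hx.1, by
        rw [← mul_inv_rev]; exact Z.inv_mem hx.2⟩ }
  have hW : K ≤ 𝐍(W) := fun g hg => mem_norm_of_conj_le fun x hx => by
    obtain ⟨y, hy, rfl⟩ := mem_conj'.mp hx
    refine ⟨H1.conj_mem_of_le_normalizer h.norm hg hy.1, ?_⟩
    rw [show g * y * g⁻¹ * (g * y * g⁻¹) = g * (y * y) * g⁻¹ by group]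
    exact H1.conj_mem_of_le_normalizer h.normZ hg hy.2
  exact fun x hx => (gen W (fun y hy => ⟨hAS hy, by simpa [pow_two] using a.piZ h hy⟩)
    (fun y hy => hy.1) hW
    (fun C c u hu => ⟨c.le hu, (a.of_not_cent h c (hnc C c)).2.1 u hu⟩) hx).2

end Cfsg.Agent.H9.Sz
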