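/-
Suzuki 2-groups, III: a solvable group of odd order that is transitive on the non-zero vectors of
a vector space over the field with two elements is semilinear of dimension one.
-/
import Cfsg.Agent.H9.Sz1
import Cfsg.Agent.H9.FrobCompl2

set_option autoImplicit false

namespace Cfsg.Agent.H9.Sz

open Subgroup
open scoped commutatorElement

universe v

theorem card_aut {F : Type*} [Field F] [Fintype F] [CharP F 2] {n : ℕ}
    (hc : Fintype.card F = 2 ^ n) : Nat.card (F ≃+* F) = n := by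
  have : Fact (Nat.Prime 2) := ⟨Nat.prime_two⟩
  let _ : Algebra (ZMod 2) F := ZMod.algebra F 2
  have h1 : Module.finrank (ZMod 2) F = n := Nat.pow_right_injective le_rfl (by
    simp only [← hc, Module.card_eq_pow_finrank (K := ZMod 2) (V := F), ZMod.card])
  rw [← h1, ← IsGalois.card_aut_eq_finrank]
  exact Nat.card_congr
    { toFun := fun σ => AlgEquiv.ofRingEquiv (f := σ) fun c => by
        obtain ⟨k, rfl⟩ := ZMod.natCast_zmod_surjective c
        simp
      invFun := fun σ => σ.toRingEquiv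
      left_inv := fun _ => rfl
      right_inv := fun _ => rfl }

variable {H : Type*} {V : Type v} [Group H] [AddCommGroup V] [DistribMulAction H V]

/-- A faithful action that is transitive on the non-zero vectors. -/
structure Tr (H V : Type*) [Group H] [AddCommGroup V] [DistribMulAction H V] : Prop where
  two : ∀ v : V, v + v = 0
  faith : ∀ h : H, (∀ v : V, h • v = v) → h = 1
  tr : ∀ v w : V, v ≠ 0 → w ≠ 0 → ∃ h : H, h • v = w

/-- Conjugation of endomorphisms. -/
def cj (h : H) : AddMonoid.End V →+* AddMonoid.End V where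
  toFun b := DistribMulAction.toAddMonoidEnd H V h * b * DistribMulAction.toAddMonoidEnd H V h⁻¹
  map_one' := by rw [mul_one, ← map_mul, mul_inv_cancel, map_one]
  map_mul' a b := AddMonoidHom.ext fun v => by
    change h • a (b (h⁻¹ • v)) = h • a (h⁻¹ • h • b (h⁻¹ • v))
    rw [inv_smul_smul]
  map_zero' := by rw [mul_zero, zero_mul]
  map_add' a b := by rw [mul_add, add_mul]

theorem cj_apply (h : H) (b : AddMonoid.End V) (v : V) : cj h b v = h • b (h⁻¹ • v) := rfl

variable [Finite V] (t : Tr H V)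
include t

theorem Tr.eq_zero {B : Subring (AddMonoid.End V)} (h1 : ∀ a ∈ B, ∀ b ∈ B, a * b = b * a)
    (h2 : ∀ h : H, ∀ b ∈ B, cj h b ∈ B) {b : AddMonoid.End V} (hb : b ∈ B) {v : V}
    (hv : v ≠ 0) (hbv : b v = 0) : b = 0 := by
  have : Finite (AddMonoid.End V) := DFunLike.finite _
  let I : V → Set (AddMonoid.End V) := fun v => {b | b ∈ B ∧ b v = 0}
  have hle : ∀ v w : V, v ≠ 0 → w ≠ 0 → (I v).ncard ≤ (I w).ncard := by
    intro v w hv hw
    obtain ⟨h, rfl⟩ := t.tr v w hv hw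
    refine Set.ncard_le_ncard_of_injOn (cj h) ?_ ?_ (Set.toFinite _)
    · exact fun b hb => ⟨h2 h b hb.1, by rw [cj_apply, inv_smul_smul, hb.2, smul_zero]⟩
    · intro a _ b _ hab
      ext x
      simpa [cj_apply] using DFunLike.congr_fun hab (h • x)
  have heq : ∀ v w : V, v ≠ 0 → w ≠ 0 → I v ⊆ I w → I v = I w := fun v w hv hw h =>
    Set.eq_of_subset_of_ncard_le h (hle w v hw hv) (Set.toFinite _)
  have hc : ∀ c ∈ B, ∀ d ∈ B, ∀ v, c (d v) = d (c v) := fun c hc d hd =>
    DFunLike.congr_fun (h1 c hc d hd)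
  have key : ∀ v w : V, v ≠ 0 → w ≠ 0 → I v = I w := by
    intro v w hv hw
    by_cases hu : ∃ u : V, u ≠ 0 ∧ I v ⊆ I u ∧ I w ⊆ I u
    · obtain ⟨u, h0, h1, h2⟩ := hu
      rw [heq v u hv h0 h1, heq w u hw h0 h2]
    · have hvw : v + w ≠ 0 := fun h => hu ⟨v, hv, subset_rfl, fun c hc => ⟨hc.1, by
        rw [eq_neg_of_add_eq_zero_left h, map_neg, hc.2, neg_zero]⟩⟩
      have hsub : ∀ c ∈ I (v + w), c v = 0 ∧ c w = 0 := by
        rintro c ⟨c1, c2⟩
        rw [map_add] at c2
        have h0 : c v = 0 := by_contra fun h0 => hu ⟨c v, h0,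
          fun d hd => ⟨hd.1, by rw [hc d hd.1 c c1, hd.2, map_zero]⟩, fun d hd => ⟨hd.1, by
            rw [eq_neg_of_add_eq_zero_left c2, map_neg, hc d hd.1 c c1, hd.2, map_zero, neg_zero]⟩⟩
        exact ⟨h0, by rwa [h0, zero_add] at c2⟩
      rw [← heq (v + w) v hvw hv fun c hc => ⟨hc.1, (hsub c hc).1⟩,
        ← heq (v + w) w hvw hw fun c hc => ⟨hc.1, (hsub c hc).2⟩]
  ext w
  by_cases hw : w = 0
  · simp [hw]
  · exact (show b ∈ I w from key v w hv hw ▸ ⟨hb, hbv⟩).2

variable [Nontrivial V]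

theorem Tr.exists_field (U : Subgroup H) [hn : U.Normal] (hU : ∀ a ∈ U, ∀ b ∈ U, a * b = b * a) :
    ∃ (F : Type v) (_ : Field F) (_ : Fintype F) (_ : CharP F 2) (_ : Module F V) (ι : U →* Fˣ)
      (γ : H →* F ≃+* F), (∀ (u : U) (v : V), (u : H) • v = (ι u : F) • v) ∧
      (∀ (h : H) (c : F) (v : V), h • c • v = γ h c • h • v) ∧
      ∀ h ∈ centralizer (U : Set H), γ h = 1 := by
  have : Finite (AddMonoid.End V) := DFunLike.finite _
  obtain ⟨v0, hv0⟩ := exists_ne (0 : V)
  let ρ := DistribMulAction.toAddMonoidEnd H V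
  let B := Subring.closure (ρ '' U)
  have c1 : ∀ h ∈ centralizer (U : Set H), ∀ b ∈ B, cj h b = b := fun h hh =>
    (Subring.closure_le (t := RingHom.eqLocus (cj h) (RingHom.id _))).2 (by
      rintro _ ⟨u, hu, rfl⟩
      refine AddMonoidHom.ext fun v => ?_
      change h • u • h⁻¹ • v = u • v
      rw [smul_smul, ← hh u hu, mul_smul, smul_inv_smul])
  have c2 : ∀ h : H, ∀ b ∈ B, cj h b ∈ B := fun h =>
    (Subring.closure_le (t := B.comap (cj h))).2 (by
      rintro _ ⟨u, hu, rfl⟩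
      exact Subring.subset_closure ⟨_, hn.conj_mem u hu h, by simp only [map_mul]; rfl⟩)
  have c3 : ∀ a ∈ B, ∀ b ∈ B, a * b = b * a := fun a ha b hb => congrArg Subtype.val
    ((Subring.isMulCommutative_closure (s := ρ '' U) (by
      rintro _ ⟨u, hu, rfl⟩ _ ⟨w, hw, rfl⟩
      rw [← map_mul, hU u hu w hw, map_mul])).is_comm.comm ⟨a, ha⟩ ⟨b, hb⟩)
  have hF : IsField B := by
    refine ⟨⟨0, 1, fun h => hv0 (DFunLike.congr_fun (congrArg Subtype.val h) v0).symm⟩,
      fun a c => Subtype.ext (c3 _ a.2 _ c.2), fun {a} ha => ?_⟩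
    refine (Finite.injective_iff_surjective (f := fun c : B => a * c)).mp (fun c d hcd => ?_) 1
    have h1 : (c - d) * a = 0 := by
      rw [sub_mul, sub_eq_zero]
      exact Subtype.ext ((c3 _ c.2 _ a.2).trans ((congrArg Subtype.val hcd).trans
        (c3 _ a.2 _ d.2)))
    have h2 : (a : AddMonoid.End V) v0 ≠ 0 := fun h =>
      ha (Subtype.ext (t.eq_zero c3 c2 a.2 hv0 h))
    rw [← sub_eq_zero]
    exact Subtype.ext (t.eq_zero c3 c2 (c - d).2 h2
      (DFunLike.congr_fun (congrArg Subtype.val h1) v0))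
  let _ : MulSemiringAction H B :=
    { smul := fun h b => ⟨cj h b, c2 h b b.2⟩
      one_smul := fun b => Subtype.ext (c1 1 (one_mem _) b b.2)
      mul_smul := fun g h b => Subtype.ext (AddMonoidHom.ext fun v => by
        change (g * h) • b.1 ((g * h)⁻¹ • v) = g • h • b.1 (h⁻¹ • g⁻¹ • v)
        rw [mul_inv_rev, mul_smul, mul_smul])
      smul_zero := fun h => Subtype.ext (map_zero (cj h))
      smul_add := fun h a b => Subtype.ext (map_add (cj h) a.1 b.1)
      smul_one := fun h => Subtype.ext (map_one (cj h))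
      smul_mul := fun h a b => Subtype.ext (map_mul (cj h) a.1 b.1) }
  let _ := hF.toField
  refine ⟨B, inferInstance, Fintype.ofFinite B, (CharP.charP_iff_prime_eq_zero Nat.prime_two).2 ?_,
    inferInstanceAs (Module B V), ((ρ.comp U.subtype).codRestrict B.toSubmonoid fun u =>
      Subring.subset_closure ⟨u, u.2, rfl⟩).toHomUnits, MulSemiringAction.toRingAut H B,
    fun _ _ => rfl, fun h c v => ?_, fun h hh => RingEquiv.ext fun b => Subtype.ext (c1 h hh b b.2)⟩
  · rw [Nat.cast_ofNat, ← one_add_one_eq_two]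
    exact Subtype.ext (AddMonoidHom.ext t.two)
  · change h • c.1 v = h • c.1 (h⁻¹ • h • v)
    rw [inv_smul_smul]

variable [Finite H] [Group.IsSolvable H]

theorem Tr.cent_le (ho : Odd (Nat.card H)) (U : Subgroup H) [U.Normal]
    (hU : ∀ a ∈ U, ∀ b ∈ U, a * b = b * a)
    (hmax : ∀ W : Subgroup H, W.Normal → (∀ a ∈ W, ∀ b ∈ W, a * b = b * a) →
      W ≤ centralizer (U : Set H) → W ≤ U) : centralizer (U : Set H) ≤ U := by
  obtain ⟨F, _, _, _, _, ι, γ, h1, h2, h3⟩ := t.exists_field U hU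
  by_contra hC
  obtain ⟨E, ⟨En, EC, EU⟩, hmin⟩ := (Set.toFinite {E : Subgroup H | E.Normal ∧
    E ≤ centralizer (U : Set H) ∧ ¬ E ≤ U}).exists_minimal ⟨_, inferInstance, le_rfl, hC⟩
  have hlt : ⁅E, E⁆ < E := Group.IsSolvable.commutator_lt_of_ne_bot fun e => EU (e ▸ bot_le)
  have hEE : ⁅E, E⁆ ≤ U := by_contra fun e =>
    hlt.not_ge (hmin ⟨inferInstance, hlt.le.trans EC, e⟩ hlt.le)
  have hι : ∀ u : U, ∀ v : V, v ≠ 0 → (ι u : F) • v = v → (u : H) = 1 := fun u v hv e =>
    t.faith _ fun w => by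
      rw [h1, smul_left_injective F hv (e.trans (one_smul F v).symm), one_smul]
  have lin : ∀ x ∈ E, ∀ (c : F) (v : V), x • c • v = c • x • v := fun x hx c v => by
    rw [h2, h3 x (EC hx)]; rfl
  have tw : ∀ x ∈ E, ∀ y ∈ E, ∃ u : U, (u : H) = ⁅x, y⁆ ∧ ∀ v : V,
      x • y • v = (ι u : F) • y • x • v := fun x hx y hy =>
    ⟨⟨_, hEE (commutator_mem_commutator hx hy)⟩, rfl, fun v => by
      rw [← h1, smul_smul, smul_smul, smul_smul]
      congr 1
      simp only [commutatorElement_def]; group⟩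
  obtain ⟨x₀, hx₀, x1, v, hv, hxv⟩ : ∃ x ∈ E, x ≠ 1 ∧ ∃ v : V, v ≠ 0 ∧ x • v = v := by
    by_contra hn
    push Not at hn
    let _ : MulDistribMulAction E (Multiplicative V) :=
      { smul := fun x v => Multiplicative.ofAdd ((x : H) • v.toAdd)
        one_smul := fun v => one_smul H v.toAdd
        mul_smul := fun x y v => mul_smul (x : H) y v.toAdd
        smul_one := fun x => smul_zero (A := V) (x : H)
        smul_mul := fun x v w => smul_add (x : H) v.toAdd w.toAdd }
    have hφ : IsFrobAction (MulDistribMulAction.toMulAut E (Multiplicative V)) :=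
      fun x hx v e => by_contra fun hv => hn x x.2 (fun e => hx (Subtype.ext e)) v.toAdd hv e
    have : Group.IsNilpotent E := isNilpotent_of_lowerCentralSeries_eq_bot (n := 2)
      (commutator_eq_bot_iff_le_centralizer.2 (hEE.trans (le_centralizer_iff.1 EC)))
    have := hφ.isCyclic_of_odd_of_isNilpotent (ho.of_dvd_nat E.card_subgroup_dvd_card)
    exact EU (hmax E En (fun a ha b hb => congrArg Subtype.val
      (mul_comm' (⟨a, ha⟩ : E) ⟨b, hb⟩)) EC)
  obtain ⟨y, hy, hxy⟩ : ∃ y ∈ E, ⁅x₀, y⁆ ≠ 1 := by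
    by_contra hn
    push Not at hn
    have hx : x₀ ∈ U := hmax (E ⊓ centralizer E) inferInstance (fun a ha b hb => hb.2 a ha.1)
      (inf_le_left.trans EC) ⟨hx₀, fun y hy =>
        (commutatorElement_eq_one_iff_mul_comm.1 (hn y hy)).symm⟩
    exact x1 (hι ⟨x₀, hx⟩ v hv (by rw [← h1, hxv]))
  obtain ⟨z, hz, e1⟩ := tw x₀ hx₀ y hy
  have hv' : y • v ≠ 0 := (smul_ne_zero_iff_ne _).2 hv
  have e2 := e1 v
  rw [hxv] at e2
  have z1 : (ι z : F) ≠ 1 := fun e => hxy (hz ▸ hι z v hv (by rw [e, one_smul]))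
  have hw : v + y • v ≠ 0 := fun e => by
    have e3 : y • v = v := add_left_cancel (e.trans (t.two v).symm)
    rw [e3, hxv] at e2
    exact hxy (hz ▸ hι z v hv e2.symm)
  obtain ⟨h, hh⟩ := t.tr _ _ hv hw
  have c1 : {x | x ∈ E ∧ x • v = v}.ncard ≤ {x | x ∈ E ∧ x • (v + y • v) = v + y • v}.ncard :=
    Set.ncard_le_ncard_of_injOn (fun x => h * x * h⁻¹) (fun x hx => ⟨En.conj_mem x hx.1 h, by
      rw [← hh, mul_smul, inv_smul_smul, mul_smul, hx.2]⟩)
      (fun a _ b _ e => by simpa using e) (Set.toFinite _)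
  refine c1.not_gt (Set.ncard_lt_ncard ⟨fun x hx => ⟨hx.1, ?_⟩, fun hs => ?_⟩ (Set.toFinite _))
  · obtain ⟨μ, -, e3⟩ := tw x₀ hx₀ x hx.1
    have E0 := hx.2
    have a1 := e3 v
    have a2 := e3 (y • v)
    rw [smul_add] at E0
    rw [hxv] at a1
    rw [e2, lin x hx.1, smul_smul (ι μ : F)] at a2
    have a0 : x • v ≠ 0 := (smul_ne_zero_iff_ne _).2 hv
    have b0 : x • y • v ≠ 0 := (smul_ne_zero_iff_ne _).2 hv'
    have m0 := (ι μ).ne_zero
    have z0 := (ι z).ne_zero
    generalize x • y • v = b at *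
    generalize x • v = a at *
    generalize y • v = v' at *
    generalize (ι μ : F) = m at *
    generalize (ι z : F) = ζ at *
    have E1 := congrArg (x₀ • ·) E0
    simp only [smul_add, lin x₀ hx₀, a1, a2, hxv, e2] at E1
    have E2 := congrArg (x₀ • ·) E1
    simp only [smul_add, lin x₀ hx₀, a1, a2, hxv, e2] at E2
    have E3 := congrArg (x₀ • ·) E2
    simp only [smul_add, lin x₀ hx₀, a1, a2, hxv, e2] at E3
    have f1 : (m * (1 - ζ) * (m - 1) * (m - ζ)) • a = 0 := by
      linear_combination (norm := module) E3 - (m * ζ + 1 + ζ) • E2 +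
        (m * ζ + m * ζ * ζ + ζ) • E1 - (m * ζ * ζ) • E0
    have f2 : (m * (ζ - 1) * (m * ζ - 1) * (ζ * (m - 1))) • b = 0 := by
      linear_combination (norm := module) E3 - (m + 1 + ζ) • E2 +
        (m + m * ζ + ζ) • E1 - (m * ζ) • E0
    have m1 : m = 1 := by_contra fun m1 => by
      simp only [smul_eq_zero, mul_eq_zero, sub_eq_zero, a0, b0, m0, z0, m1, z1, z1.symm, false_or,
        or_false] at f1 f2
      have t2 : (2 : F) = 0 := CharTwo.two_eq_zero
      exact z1 (sub_eq_zero.1 (mul_self_eq_zero.1 (by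
        linear_combination f2 - ζ * f1 + (1 - ζ) * t2)))
    subst m1
    have f3 : (1 - ζ) • (a - v) = 0 := by linear_combination (norm := module) E1 - ζ • E0
    exact sub_eq_zero.1 ((smul_eq_zero.1 f3).resolve_left (sub_ne_zero.2 z1.symm))
  · have := (hs ⟨hx₀, hxv⟩).2
    rw [smul_add, hxv, e2] at this
    exact hxy (hz ▸ hι z _ hv' (add_left_cancel this))

theorem Tr.semilinear (ho : Odd (Nat.card H)) :
    ∃ (F : Type v) (_ : Field F) (_ : Fintype F) (_ : CharP F 2) (φ : V ≃+ F) (α : H → F)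
      (γ : H →* F ≃+* F) (M : Subgroup Fˣ) (n : ℕ), (∀ h v, φ (h • v) = α h * γ h (φ v)) ∧
      (∀ m ∈ M, ∃ h, α h = m ∧ γ h = 1) ∧ Fintype.card F = 2 ^ n ∧ M.index ∣ n := by
  obtain ⟨U, ⟨Un, hU⟩, hmax⟩ := (Set.toFinite {U : Subgroup H | U.Normal ∧
    ∀ a ∈ U, ∀ b ∈ U, a * b = b * a}).exists_maximal ⟨⊥, inferInstance, by simp⟩
  have hC := t.cent_le ho U hU fun W Wn hW hWU => le_sup_left.trans (hmax (y := W ⊔ U)
    ⟨inferInstance, fun a ha b hb => by
      obtain ⟨a, ha', c, hc, rfl⟩ := mem_sup_of_normal_right.1 ha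
      obtain ⟨b, hb', d, hd, rfl⟩ := mem_sup_of_normal_right.1 hb
      exact (Commute.mul_left (Commute.mul_right (hW a ha' b hb') (hWU ha' d hd).symm)
        (Commute.mul_right (hWU hb' c hc) (hU c hc d hd))).eq⟩ le_sup_right)
  obtain ⟨F, _, _, _, _, ι, γ, h1, h2, h3⟩ := t.exists_field U hU
  obtain ⟨v, hv⟩ := exists_ne (0 : V)
  obtain ⟨⟨n, n0⟩, -, hn : _ = 2 ^ n⟩ := FiniteField.card F 2
  have hι : Function.Injective ι := (injective_iff_map_eq_one ι).2 fun u hu =>
    Subtype.ext (t.faith _ fun w => by rw [h1, hu, Units.val_one, one_smul])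
  have hγ : γ.ker = U := le_antisymm (fun h hh => hC fun u hu => mul_inv_eq_one.1
    (t.faith _ fun w => by
      have := h2 h (ι ⟨u, hu⟩) (u⁻¹ • h⁻¹ • w)
      rw [MonoidHom.mem_ker.1 hh, ← h1, smul_inv_smul, smul_inv_smul] at this
      rw [mul_inv_rev, mul_smul, mul_smul, mul_smul, h1 ⟨u, hu⟩]
      exact this.symm)) fun u hu => h3 u fun w hw => hU w hw u hu
  have c1 : U.index ∣ n := by
    rw [← hγ, index_ker, ← card_aut hn]
    exact card_subgroup_dvd_card _
  have c2 : Nat.card V - 1 ∣ Nat.card ι.range * U.index := by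
    rw [← Nat.card_congr (MonoidHom.ofInjective hι).toEquiv, U.card_mul_index]
    refine Dvd.dvd.trans (dvd_of_eq ?_) (MulAction.stabilizer H v).index_dvd_card
    rw [MulAction.index_stabilizer, ← Set.ncard_univ, ← Set.ncard_diff_singleton_of_mem
      (Set.mem_univ (0 : V))]
    congr 1
    ext w
    exact ⟨fun hw => t.tr v w hv hw.2, fun ⟨h, hh⟩ => ⟨trivial, hh ▸ (smul_ne_zero_iff_ne h).2 hv⟩⟩
  have c3 := ι.range.card_mul_index
  rw [Nat.card_units, Nat.card_eq_fintype_card (α := F), hn] at c3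
  have : Module.Finite F V := Module.Finite.of_finite
  have c4 := Module.natCard_eq_pow_finrank (K := F) (V := V)
  rw [Nat.card_eq_fintype_card (α := F), hn] at c4
  have c5 : Module.finrank F V = 1 := by
    refine le_antisymm (not_lt.1 fun h => ?_) Module.finrank_pos
    have d1 := Nat.le_of_dvd (Nat.mul_pos Nat.card_pos
      (Nat.pos_of_ne_zero U.index_ne_zero_of_finite)) c2
    have d2 := Nat.mul_le_mul (Nat.le_of_dvd (by simp; omega) ⟨_, c3.symm⟩)
      ((Nat.le_of_dvd n0 c1).trans (Nat.lt_two_pow_self (n := n)).le)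
    have d3 := Nat.pow_le_pow_right (Nat.two_pow_pos n) (Nat.succ_le_of_lt h)
    have d4 : 1 < 2 ^ n := Nat.one_lt_two_pow n0.ne'
    simp only [PNat.mk_coe] at *
    generalize 2 ^ n = q at *
    obtain ⟨q, rfl⟩ := Nat.exists_eq_add_of_lt d4
    rw [c4] at d1
    have := (d1.trans d2)
    rw [tsub_le_iff_right] at this
    have := d3.trans this
    simp only [show 1 + q + 1 - 1 = q + 1 by omega] at this
    nlinarith
  let e := LinearEquiv.ofBijective (LinearMap.toSpanSingleton F V v)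
    ⟨smul_left_injective F hv, (finrank_eq_one_iff_of_nonzero' v hv).1 c5⟩
  have he : ∀ w, e.symm w • v = w := e.apply_symm_apply
  refine ⟨F, inferInstance, inferInstance, inferInstance, e.symm.toAddEquiv,
    fun h => e.symm (h • v), γ, ι.range, n, fun h w => smul_left_injective F hv ?_, ?_, hn, ?_⟩
  · change e.symm (h • w) • v = (e.symm (h • v) * γ h (e.symm w)) • v
    rw [he, mul_comm, mul_smul, he, ← h2, he]
  · rintro _ ⟨u, rfl⟩
    exact ⟨u, smul_left_injective F hv ((he _).trans (h1 u v)), hγ.ge u.2⟩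
  · rw [c4, c5, pow_one, ← c3] at c2
    exact (Nat.dvd_of_mul_dvd_mul_left Nat.card_pos c2).trans c1

end Cfsg.Agent.H9.Sz
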